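import Mathlib

/-! Automorphisms of the monomial `2`-group attached to a Fermat prime. -/

set_option autoImplicit false
set_option linter.unusedVariables false
set_option linter.style.haveILetI false
set_option linter.unusedSectionVars false
set_option linter.unusedSimpArgs false
set_option linter.flexible false

namespace CfsgLib.Rec.FermatAut

section fix
variable {T : Type*} [Group T] [Finite T]

theorem fix_coset (hT : IsPGroup 2 T) (α : MulAut T) {r : ℕ} [Fact r.Prime] (hr : r ≠ 2)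
    (hα : orderOf α = r) (H : Subgroup T) (c : T) (h : ∀ x, c⁻¹ * x ∈ H → c⁻¹ * α x ∈ H) :
    ∃ x, c⁻¹ * x ∈ H ∧ α x = x := by
  classical
  letI : Fintype T := Fintype.ofFinite T
  let X := {x : T // c⁻¹ * x ∈ H}
  let f : X → X := fun x => ⟨α x.1, h x.1 x.2⟩
  have hinj : Function.Injective f := by
    intro x y hxy
    exact Subtype.ext (α.injective (congrArg Subtype.val hxy))
  let σ : Equiv.Perm X := Equiv.ofBijective f (Finite.injective_iff_bijective.1 hinj)
  have hσ : ∀ k : ℕ, ∀ x : X, ((σ ^ k) x).1 = (α ^ k) x.1 := by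
    intro k
    induction k with
    | zero => intro x; simp
    | succ k ih =>
      intro x
      rw [pow_succ', pow_succ']
      simp only [Equiv.Perm.mul_apply, MulAut.mul_apply]
      show α ((σ ^ k) x).1 = _
      rw [ih]
  have hσr : σ ^ r ^ 1 = 1 := by
    ext x
    rw [pow_one, hσ, ← hα, pow_orderOf_eq_one]
    rfl
  have hcard : ¬ r ∣ Fintype.card X := by
    intro hd
    let e : X ≃ H :=
      { toFun := fun x => ⟨c⁻¹ * x.1, x.2⟩
        invFun := fun y => ⟨c * y.1, by simp⟩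
        left_inv := by intro x; simp
        right_inv := by intro y; simp }
    have h1 : Nat.card X = Nat.card H := Nat.card_congr e
    rw [Nat.card_eq_fintype_card] at h1
    rw [h1] at hd
    obtain ⟨n, hn⟩ := IsPGroup.iff_card.1 (hT.to_subgroup H)
    rw [hn] at hd
    have h2 : r ∣ 2 := (Fact.out : r.Prime).dvd_of_dvd_pow hd
    exact hr ((Nat.prime_dvd_prime_iff_eq Fact.out Nat.prime_two).1 h2)
  obtain ⟨x, hx⟩ := Equiv.Perm.exists_fixed_point_of_prime hcard hσr
  exact ⟨x.1, x.2, congrArg Subtype.val hx⟩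

end fix

variable {q : ℕ} [Fact q.Prime]

abbrev LE (q : ℕ) [Fact q.Prime] := (Fin 2 → ZMod q) ≃ₗ[ZMod q] (Fin 2 → ZMod q)

theorem finite_LE : Finite (LE q) :=
  Finite.of_injective (fun f : LE q => (f : (Fin 2 → ZMod q) → (Fin 2 → ZMod q)))
    (fun f g h => LinearEquiv.ext (congrFun h))

def Sg (s : ZMod q) : Prop := s = 1 ∨ s = -1

theorem Sg.mul {s t : ZMod q} (hs : Sg s) (ht : Sg t) : Sg (s * t) := by
  rcases hs with rfl | rfl <;> rcases ht with rfl | rfl <;> simp [Sg]

theorem Sg.sq {s : ZMod q} (hs : Sg s) : s * s = 1 := by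
  rcases hs with rfl | rfl <;> simp

theorem Sg.ne {s : ZMod q} (hs : Sg s) : s ≠ 0 := by
  intro h
  have := hs.sq
  rw [h] at this
  simp at this

theorem Sg.one : Sg (1 : ZMod q) := Or.inl rfl
theorem Sg.neg_one : Sg (-1 : ZMod q) := Or.inr rfl

theorem Sg.pow {s : ZMod q} (hs : Sg s) (k : ℕ) : Sg (s ^ k) := by
  induction k with
  | zero => simpa using Sg.one
  | succ k ih =>
    rw [pow_succ]
    exact ih.mul hs

theorem Sg.inv_eq {s : ZMod q} (hs : Sg s) : s⁻¹ = s := by
  exact (eq_inv_of_mul_eq_one_left hs.sq).symm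

def DD (f : LE q) (a s : ZMod q) : Prop :=
  a ≠ 0 ∧ Sg s ∧ ∀ v, f v = ![a * v 0, s * a⁻¹ * v 1]

def AA (f : LE q) (a s : ZMod q) : Prop :=
  a ≠ 0 ∧ Sg s ∧ ∀ v, f v = ![s * a⁻¹ * v 1, a * v 0]

def mkD (a s : ZMod q) (ha : a ≠ 0) (hs : s ≠ 0) : LE q where
  toFun v := ![a * v 0, s * a⁻¹ * v 1]
  invFun v := ![a⁻¹ * v 0, s⁻¹ * a * v 1]
  map_add' u v := by ext i; fin_cases i <;> simp <;> ring
  map_smul' c v := by ext i; fin_cases i <;> simp <;> ring
  left_inv v := by ext i; fin_cases i <;> simp <;> field_simp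
  right_inv v := by ext i; fin_cases i <;> simp <;> field_simp

def mkA (a s : ZMod q) (ha : a ≠ 0) (hs : s ≠ 0) : LE q where
  toFun v := ![s * a⁻¹ * v 1, a * v 0]
  invFun v := ![a⁻¹ * v 1, s⁻¹ * a * v 0]
  map_add' u v := by ext i; fin_cases i <;> simp <;> ring
  map_smul' c v := by ext i; fin_cases i <;> simp <;> ring
  left_inv v := by ext i; fin_cases i <;> simp <;> field_simp
  right_inv v := by ext i; fin_cases i <;> simp <;> field_simp

theorem DD_mk {a s : ZMod q} (ha : a ≠ 0) (hs : Sg s) : DD (mkD a s ha hs.ne) a s :=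
  ⟨ha, hs, fun _ => rfl⟩

theorem AA_mk {a s : ZMod q} (ha : a ≠ 0) (hs : Sg s) : AA (mkA a s ha hs.ne) a s :=
  ⟨ha, hs, fun _ => rfl⟩

theorem DD.mul {f g : LE q} {a s b t : ZMod q} (hf : DD f a s) (hg : DD g b t) :
    DD (f * g) (a * b) (s * t) := by
  refine ⟨mul_ne_zero hf.1 hg.1, hf.2.1.mul hg.2.1, fun v => ?_⟩
  rw [LinearEquiv.mul_apply, hf.2.2, hg.2.2]
  have ha := hf.1
  have hb := hg.1
  ext i
  fin_cases i <;> simp <;> field_simp

theorem AA.mul_AA {f g : LE q} {a s b t : ZMod q} (hf : AA f a s) (hg : AA g b t) :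
    DD (f * g) (s * a⁻¹ * b) (s * t) := by
  have ha := hf.1
  have hb := hg.1
  have hs := hf.2.1.ne
  have hss := hf.2.1.sq
  refine ⟨mul_ne_zero (mul_ne_zero hs (inv_ne_zero ha)) hb, hf.2.1.mul hg.2.1, fun v => ?_⟩
  rw [LinearEquiv.mul_apply, hf.2.2, hg.2.2]
  ext i
  fin_cases i <;> simp <;> field_simp

theorem DD.mul_AA {f g : LE q} {a s b t : ZMod q} (hf : DD f a s) (hg : AA g b t) :
    AA (f * g) (s * a⁻¹ * b) (s * t) := by
  have ha := hf.1
  have hb := hg.1
  have hs := hf.2.1.ne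
  refine ⟨mul_ne_zero (mul_ne_zero hs (inv_ne_zero ha)) hb, hf.2.1.mul hg.2.1, fun v => ?_⟩
  rw [LinearEquiv.mul_apply, hf.2.2, hg.2.2]
  ext i
  fin_cases i <;> simp <;> field_simp

theorem AA.mul_DD {f g : LE q} {a s b t : ZMod q} (hf : AA f a s) (hg : DD g b t) :
    AA (f * g) (a * b) (s * t) := by
  have ha := hf.1
  have hb := hg.1
  have hs := hf.2.1.ne
  refine ⟨mul_ne_zero ha hb, hf.2.1.mul hg.2.1, fun v => ?_⟩
  rw [LinearEquiv.mul_apply, hf.2.2, hg.2.2]
  ext i
  fin_cases i <;> simp <;> field_simp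

theorem DD.one : DD (1 : LE q) 1 1 := by
  refine ⟨one_ne_zero, Sg.one, fun v => ?_⟩
  ext i
  fin_cases i <;> simp

theorem DD.eq {f g : LE q} {a s : ZMod q} (hf : DD f a s) (hg : DD g a s) : f = g := by
  ext1 v
  rw [hf.2.2, hg.2.2]

theorem AA.eq {f g : LE q} {a s : ZMod q} (hf : AA f a s) (hg : AA g a s) : f = g := by
  ext1 v
  rw [hf.2.2, hg.2.2]

theorem DD.uniq {f : LE q} {a s b t : ZMod q} (hf : DD f a s) (hg : DD f b t) : a = b ∧ s = t := by
  have h1 := (hf.2.2 ![1, 0]).symm.trans (hg.2.2 ![1, 0])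
  have h2 := (hf.2.2 ![0, 1]).symm.trans (hg.2.2 ![0, 1])
  have h3 := congrFun h1 0
  have h4 := congrFun h2 1
  simp at h3 h4
  subst h3
  have ha := hf.1
  exact ⟨rfl, mul_right_cancel₀ (inv_ne_zero ha) h4⟩

theorem AA.uniq {f : LE q} {a s b t : ZMod q} (hf : AA f a s) (hg : AA f b t) : a = b ∧ s = t := by
  have h1 := (hf.2.2 ![1, 0]).symm.trans (hg.2.2 ![1, 0])
  have h2 := (hf.2.2 ![0, 1]).symm.trans (hg.2.2 ![0, 1])
  have h3 := congrFun h1 1
  have h4 := congrFun h2 0
  simp at h3 h4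
  subst h3
  have ha := hf.1
  exact ⟨rfl, mul_right_cancel₀ (inv_ne_zero ha) h4⟩

theorem DD.not_AA {f : LE q} {a s b t : ZMod q} (hf : DD f a s) (hg : AA f b t) : False := by
  have h1 := (hf.2.2 ![1, 0]).symm.trans (hg.2.2 ![1, 0])
  have h3 := congrFun h1 0
  simp at h3
  exact hf.1 h3

theorem DD.pow {f : LE q} {a s : ZMod q} (hf : DD f a s) (k : ℕ) : DD (f ^ k) (a ^ k) (s ^ k) := by
  induction k with
  | zero => simpa using DD.one
  | succ k ih =>
    rw [pow_succ, pow_succ, pow_succ]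
    exact ih.mul hf

theorem DD.inv {f : LE q} {a s : ZMod q} (hf : DD f a s) : DD f⁻¹ a⁻¹ s := by
  have hg := DD_mk (inv_ne_zero hf.1) hf.2.1
  have h := hf.mul hg
  rw [mul_inv_cancel₀ hf.1, hf.2.1.sq] at h
  have h1 := h.eq DD.one
  rw [eq_inv_of_mul_eq_one_right h1] at hg
  exact hg

theorem AA.inv {f : LE q} {a s : ZMod q} (hf : AA f a s) : AA f⁻¹ (s * a) s := by
  have ha := hf.1
  have hs := hf.2.1
  have hg := AA_mk (mul_ne_zero hs.ne ha) hs
  have h := hf.mul_AA hg
  have e1 : s * a⁻¹ * (s * a) = 1 := by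
    have := hs.sq
    field_simp
    linear_combination this
  rw [e1, hs.sq] at h
  have h1 := h.eq DD.one
  rw [eq_inv_of_mul_eq_one_right h1] at hg
  exact hg

theorem DD.comm {f g : LE q} {a s b t : ZMod q} (hf : DD f a s) (hg : DD g b t) : f * g = g * f := by
  have h1 := hf.mul hg
  have h2 := hg.mul hf
  rw [mul_comm b a, mul_comm t s] at h2
  exact h1.eq h2

theorem AA.sq {f : LE q} {a s : ZMod q} (hf : AA f a s) : DD (f * f) s 1 := by
  have h := hf.mul_AA hf
  have e1 : s * a⁻¹ * a = s := by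
    have := hf.1
    field_simp
  rwa [e1, hf.2.1.sq] at h

theorem AA.four {f : LE q} {a s : ZMod q} (hf : AA f a s) : f ^ 4 = 1 := by
  have h := hf.sq
  have h2 := h.mul h
  rw [hf.2.1.sq, one_mul] at h2
  have h3 := h2.eq DD.one
  rw [show (4 : ℕ) = 2 + 2 from rfl, pow_add, pow_two]
  exact h3

section main
variable (T : Subgroup ((Fin 2 → ZMod q) ≃ₗ[ZMod q] (Fin 2 → ZMod q)))
    (hT : ∀ f, f ∈ T ↔ ∃ a s : ZMod q, a ≠ 0 ∧ (s = 1 ∨ s = -1) ∧
      ((∀ v, f v = ![a * v 0, s * a⁻¹ * v 1]) ∨ (∀ v, f v = ![s * a⁻¹ * v 1, a * v 0])))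
include hT

theorem mem_D {f : LE q} {a s : ZMod q} (h : DD f a s) : f ∈ T :=
  (hT f).2 ⟨a, s, h.1, h.2.1, Or.inl h.2.2⟩

theorem mem_A {f : LE q} {a s : ZMod q} (h : AA f a s) : f ∈ T :=
  (hT f).2 ⟨a, s, h.1, h.2.1, Or.inr h.2.2⟩

theorem cls (x : T) : (∃ a s : ZMod q, DD x.1 a s) ∨ (∃ a s : ZMod q, AA x.1 a s) := by
  obtain ⟨a, s, ha, hs, h | h⟩ := (hT x.1).1 x.2
  · exact Or.inl ⟨a, s, ha, hs, h⟩
  · exact Or.inr ⟨a, s, ha, hs, h⟩

theorem pgroup (m : ℕ) (hq : q = 2 ^ m + 1) (hm : 1 ≤ m) : IsPGroup 2 T := by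
  have hfer : ∀ a : ZMod q, a ≠ 0 → a ^ (2 ^ m) = 1 := by
    intro a ha
    have := ZMod.pow_card_sub_one_eq_one ha
    rwa [Nat.sub_eq_of_eq_add hq] at this
  intro x
  refine ⟨m + 1, ?_⟩
  apply Subtype.ext
  rw [Subgroup.coe_pow, Subgroup.coe_one]
  rcases cls T hT x with ⟨a, s, h⟩ | ⟨a, s, h⟩
  · have h1 := h.pow (2 ^ (m + 1))
    have h2 : a ^ (2 ^ (m + 1)) = 1 := by
      rw [pow_succ, pow_mul, hfer a h.1, one_pow]
    have h3 : s ^ (2 ^ (m + 1)) = 1 := by
      rw [pow_succ', pow_mul, pow_two, h.2.1.sq, one_pow]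
    rw [h2, h3] at h1
    exact h1.eq DD.one
  · obtain ⟨k, rfl⟩ : ∃ k, m = k + 1 := ⟨m - 1, by omega⟩
    rw [show 2 ^ (k + 1 + 1) = 4 * 2 ^ k by ring, pow_mul, h.four, one_pow]

theorem card_prime_eq_of (hmain : ∀ (α : MulAut T) (r : ℕ) [Fact r.Prime], r ≠ 2 → orderOf α = r → False) :
    IsPGroup 2 (MulAut T) := by
  haveI : Finite (LE q) := finite_LE
  haveI : Finite T := Subtype.finite
  rw [IsPGroup.iff_card]
  haveI : Fact (Nat.Prime 2) := ⟨Nat.prime_two⟩
  refine ⟨_, Nat.eq_prime_pow_of_unique_prime_dvd (Nat.card_pos (α := MulAut T)).ne' ?_⟩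
  intro r hr hd
  by_contra hne
  haveI : Fact r.Prime := ⟨hr⟩
  obtain ⟨α, hα⟩ := exists_prime_orderOf_dvd_card' r hd
  exact hmain α r hne hα

/-- `q = 2`. -/
theorem case_two (hq : q = 2) : IsPGroup 2 (MulAut T) := by
  have h1 : ∀ a : ZMod q, a ≠ 0 → a = 1 := by
    intro a ha
    have := ZMod.pow_card_sub_one_eq_one ha
    rwa [show q - 1 = 1 by omega, pow_one] at this
  have h2 : (-1 : ZMod q) = 1 := by
    have h3 : ((q : ℕ) : ZMod q) = ((2 : ℕ) : ZMod q) := congrArg _ hq
    rw [ZMod.natCast_self] at h3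
    push_cast at h3
    apply neg_eq_of_add_eq_zero_left
    rw [one_add_one_eq_two, ← h3]
  have hS : ∀ s : ZMod q, Sg s → s = 1 := by
    rintro s (h | h)
    · exact h
    · rw [h, h2]
  intro α
  refine ⟨0, ?_⟩
  rw [pow_zero, pow_one]
  refine MulEquiv.ext fun x => ?_
  rw [MulAut.one_apply]
  rcases cls T hT x with ⟨a, s, h⟩ | ⟨a, s, h⟩
  · have ha := h1 a h.1
    have hs := hS s h.2.1
    subst ha hs
    have : x = 1 := Subtype.ext (h.eq DD.one)
    rw [this, map_one]
  · have ha := h1 a h.1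
    have hs := hS s h.2.1
    subst ha hs
    rcases cls T hT (α x) with ⟨b, t, h'⟩ | ⟨b, t, h'⟩
    · have hb := h1 b h'.1
      have ht := hS t h'.2.1
      subst hb ht
      have h3 : α x = 1 := Subtype.ext (h'.eq DD.one)
      have h4 : x = 1 := α.injective (by rw [h3, map_one])
      rw [h4] at h
      exact absurd h (fun h5 => DD.one.not_AA (by simpa using h5))
    · have hb := h1 b h'.1
      have ht := hS t h'.2.1
      subst hb ht
      apply Subtype.ext
      exact h'.eq h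

/-- The subgroup of diagonal elements. -/
def Dg : Subgroup T where
  carrier := {x | ∃ a s : ZMod q, DD x.1 a s}
  mul_mem' := by
    rintro x y ⟨a, s, h⟩ ⟨b, t, h'⟩
    exact ⟨_, _, h.mul h'⟩
  one_mem' := ⟨1, 1, DD.one⟩
  inv_mem' := by
    rintro x ⟨a, s, h⟩
    exact ⟨_, _, h.inv⟩

/-- Elements `diag(±1, ±1)` with `s = 1`. -/
def Zg : Subgroup T where
  carrier := {x | ∃ a : ZMod q, a * a = 1 ∧ DD x.1 a 1}
  mul_mem' := by
    rintro x y ⟨a, ha, h⟩ ⟨b, hb, h'⟩
    refine ⟨a * b, ?_, ?_⟩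
    · calc a * b * (a * b) = (a * a) * (b * b) := by ring
        _ = 1 := by rw [ha, hb, one_mul]
    · simpa using h.mul h'
  one_mem' := ⟨1, by simp, DD.one⟩
  inv_mem' := by
    rintro x ⟨a, ha, h⟩
    refine ⟨a⁻¹, ?_, h.inv⟩
    rw [← mul_inv, ha, inv_one]

/-- Squares in the first coordinate (for `N = 2^(m-1)`). -/
def Eg (N : ℕ) : Subgroup T where
  carrier := {x | ∃ a s : ZMod q, a ^ N = 1 ∧ DD x.1 a s}
  mul_mem' := by
    rintro x y ⟨a, s, ha, h⟩ ⟨b, t, hb, h'⟩
    exact ⟨a * b, s * t, by rw [mul_pow, ha, hb, one_mul], h.mul h'⟩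
  one_mem' := ⟨1, 1, by simp, DD.one⟩
  inv_mem' := by
    rintro x ⟨a, s, ha, h⟩
    exact ⟨a⁻¹, s, by rw [inv_pow, ha, inv_one], h.inv⟩

theorem exists_nonsq (hq2 : q ≠ 2) : ∃ ζ : ZMod q, ζ ≠ 0 ∧ ζ ^ (q / 2) = -1 := by
  have hchar : ringChar (ZMod q) ≠ 2 := by
    rw [ZMod.ringChar_zmod_n]
    exact hq2
  obtain ⟨a, ha⟩ := FiniteField.exists_nonsquare hchar
  have ha0 : a ≠ 0 := by
    rintro rfl
    exact ha (IsSquare.zero)
  refine ⟨a, ha0, ?_⟩
  rcases ZMod.pow_div_two_eq_neg_one_or_one q ha0 with h | h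
  · exact absurd ((ZMod.euler_criterion q ha0).2 h) ha
  · exact h

theorem main_big (m : ℕ) (hq : q = 2 ^ m + 1) (hm : 3 ≤ m) (α : MulAut T) (r : ℕ) [Fact r.Prime]
    (hr : r ≠ 2) (hα : orderOf α = r) : False := by
  haveI : Finite (LE q) := finite_LE
  haveI : Finite T := Subtype.finite
  have hP := pgroup T hT m hq (by omega)
  obtain ⟨n, rfl⟩ : ∃ n, m = n + 3 := ⟨m - 3, by omega⟩
  set N : ℕ := 2 ^ (n + 2) with hN
  have hq2N : q = 2 * N + 1 := by
    rw [hq, hN]
    ring
  have hqdiv : q / 2 = N := by omega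
  have hqne : q ≠ 2 := by
    have : 0 < N := by positivity
    omega
  haveI : Fact (2 < q) := ⟨by
    have hqp : q.Prime := Fact.out
    have := hqp.two_le
    omega⟩
  have hneg : (-1 : ZMod q) ≠ 1 := ZMod.neg_one_ne_one
  have hfer : ∀ a : ZMod q, a ≠ 0 → a ^ (2 * N) = 1 := by
    intro a ha
    have := ZMod.pow_card_sub_one_eq_one ha
    rwa [show q - 1 = 2 * N by omega] at this
  have h4N : N = 4 * 2 ^ n := by
    rw [hN]
    ring
  obtain ⟨ζ, hζ0, hζ⟩ := exists_nonsq T hT hqne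
  rw [hqdiv] at hζ
  have hSg1 := (Sg.one : Sg (1 : ZMod q))
  have hSgm := (Sg.neg_one : Sg (-1 : ZMod q))
  -- basic elements
  have hg₀ := DD_mk hζ0 hSg1
  let g₀ : T := ⟨_, mem_D T hT hg₀⟩
  have hw₀ := AA_mk (one_ne_zero : (1 : ZMod q) ≠ 0) hSg1
  let w₀ : T := ⟨_, mem_A T hT hw₀⟩
  have hu₀ := DD_mk (one_ne_zero : (1 : ZMod q) ≠ 0) hSgm
  let u₀ : T := ⟨_, mem_D T hT hu₀⟩
  have hpowN : ∀ {x : T} {a s : ZMod q}, DD x.1 a s → DD (x ^ N).1 (a ^ N) 1 := by
    intro x a s h
    have h1 := h.pow N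
    have h2 : s ^ N = 1 := by
      have h3 : s ^ 4 = 1 := by
        calc s ^ 4 = (s * s) * (s * s) := by ring
          _ = 1 := by rw [h.2.1.sq, one_mul]
      rw [h4N, pow_mul, h3, one_pow]
    rw [h2] at h1
    exact h1
  have hone : ∀ {x : T}, DD x.1 1 1 → x = 1 := by
    intro x h
    exact Subtype.ext (h.eq DD.one)
  have hpowA : ∀ {x : T} {a s : ZMod q}, AA x.1 a s → x ^ N = 1 := by
    intro x a s h
    apply Subtype.ext
    rw [Subgroup.coe_pow, h4N, pow_mul, h.four, one_pow]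
    rfl
  -- the centralizer characterization
  have hDchar : ∀ x : T, (x ∈ Dg T) ↔ ∀ y : T, x * (y * y) = (y * y) * x := by
    intro x
    constructor
    · rintro ⟨a, s, h⟩ y
      apply Subtype.ext
      rcases cls T hT y with ⟨b, t, h'⟩ | ⟨b, t, h'⟩
      · exact h.comm (h'.mul h')
      · exact h.comm h'.sq
    · intro hall
      rcases cls T hT x with ⟨a, s, h⟩ | ⟨a, s, h⟩
      · exact ⟨a, s, h⟩
      · exfalso
        have hy := hall g₀
        have h1 : DD (g₀ * g₀).1 (ζ * ζ) (1 * 1) := hg₀.mul hg₀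
        rw [one_mul] at h1
        have h2 := h.mul_DD h1
        have h3 := h1.mul_AA h
        rw [one_mul] at h3
        rw [mul_one] at h2
        have h4 : x.1 * (g₀ * g₀).1 = (g₀ * g₀).1 * x.1 := congrArg Subtype.val hy
        rw [h4] at h2
        obtain ⟨h5, -⟩ := h2.uniq h3
        have hζζ : ζ * ζ ≠ 0 := mul_ne_zero hζ0 hζ0
        have h6 : (ζ * ζ) * (ζ * ζ) = 1 := by
          have ha := h.1
          have h7 : a * (ζ * ζ) * (ζ * ζ) = a := by
            rw [h5]
            field_simp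
          have h8 : a * ((ζ * ζ) * (ζ * ζ)) = a * 1 := by
            rw [mul_one, ← mul_assoc]
            exact h7
          exact mul_left_cancel₀ ha h8
        apply hneg
        rw [← hζ, h4N, pow_mul]
        have h9 : ζ ^ 4 = 1 := by
          rw [← h6]
          ring
        rw [h9, one_pow]
  have hDst : ∀ x : T, α x ∈ Dg T ↔ x ∈ Dg T := by
    intro x
    rw [hDchar, hDchar]
    constructor
    · intro h y
      apply α.injective
      simp only [map_mul]
      exact h (α y)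
    · intro h y
      obtain ⟨y', rfl⟩ := α.surjective y
      simp only [← map_mul]
      rw [h y']
  -- fixed element `t`
  have hw₀w₀ : w₀ * w₀ = 1 := by
    apply hone
    have := hw₀.mul_AA hw₀
    simpa using this
  have hw₀inv : w₀⁻¹ = w₀ := (eq_inv_of_mul_eq_one_left hw₀w₀).symm
  have hcosetW : ∀ x : T, w₀⁻¹ * x ∈ Dg T ↔ x ∉ Dg T := by
    intro x
    rw [hw₀inv]
    constructor
    · rintro ⟨b, t, h⟩ ⟨a, s, h'⟩
      have h1 : AA (w₀ * x).1 _ _ := hw₀.mul_DD h'
      exact h.not_AA h1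
    · intro hx
      rcases cls T hT x with ⟨a, s, h⟩ | ⟨a, s, h⟩
      · exact absurd ⟨a, s, h⟩ hx
      · exact ⟨_, _, hw₀.mul_AA h⟩
  obtain ⟨t, ht, hαt⟩ := fix_coset hP α hr hα (Dg T) w₀ (by
    intro x hx
    rw [hcosetW] at hx ⊢
    rwa [hDst])
  have htD : t ∉ Dg T := (hcosetW t).1 ht
  -- fixed element `g`
  have hg₀inv : ∀ {x : T} {a s : ZMod q}, DD x.1 a s → DD (g₀⁻¹ * x).1 (ζ⁻¹ * a) s := by
    intro x a s h
    have := hg₀.inv.mul h
    rwa [one_mul] at this
  have hcosetE : ∀ x : T, g₀⁻¹ * x ∈ Eg T N ↔ x ^ N ≠ 1 := by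
    intro x
    constructor
    · rintro ⟨b, t', hb, h⟩ hx
      have hx' : x = g₀ * (g₀⁻¹ * x) := by group
      have h1 : DD x.1 (ζ * b) (1 * t') := by
        rw [hx']
        exact hg₀.mul h
      have h2 := hpowN h1
      rw [hx] at h2
      rw [mul_pow, hb, mul_one, hζ] at h2
      exact hneg (h2.uniq DD.one).1
    · intro hx
      rcases cls T hT x with ⟨a, s, h⟩ | ⟨a, s, h⟩
      · have ha0 := h.1
        have haN : a ^ N = -1 := by
          rw [← hqdiv]
          rcases ZMod.pow_div_two_eq_neg_one_or_one q ha0 with h1 | h1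
          · exfalso
            rw [hqdiv] at h1
            have h2 := hpowN h
            rw [h1] at h2
            exact hx (hone h2)
          · exact h1
        refine ⟨ζ⁻¹ * a, s, ?_, hg₀inv h⟩
        rw [mul_pow, inv_pow, hζ, haN]
        norm_num
      · exact absurd (hpowA h) hx
  obtain ⟨g, hg, hαg⟩ := fix_coset hP α hr hα (Eg T N) g₀ (by
    intro x hx
    rw [hcosetE] at hx ⊢
    intro h
    apply hx
    apply α.injective
    rw [map_pow, h, map_one])
  have hgN : g ^ N ≠ 1 := (hcosetE g).1 hg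
  obtain ⟨a₁, s₁, hgD⟩ : ∃ a₁ s₁ : ZMod q, DD g.1 a₁ s₁ := by
    rcases cls T hT g with ⟨a, s, h⟩ | ⟨a, s, h⟩
    · exact ⟨a, s, h⟩
    · exact absurd (hpowA h) hgN
  have ha₁0 := hgD.1
  have ha₁N : a₁ ^ N = -1 := by
    rw [← hqdiv]
    rcases ZMod.pow_div_two_eq_neg_one_or_one q ha₁0 with h1 | h1
    · exfalso
      rw [hqdiv] at h1
      have h2 := hpowN hgD
      rw [h1] at h2
      exact hgN (hone h2)
    · exact h1
  -- fixed element `u`
  have hsqform : ∀ y : T, ∃ c : ZMod q, DD (y * y).1 c 1 := by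
    intro y
    rcases cls T hT y with ⟨b, t', h'⟩ | ⟨b, t', h'⟩
    · have := h'.mul h'
      rw [h'.2.1.sq] at this
      exact ⟨_, this⟩
    · exact ⟨_, h'.sq⟩
  have hcosetU : ∀ x : T, u₀⁻¹ * x ∈ Zg T ↔
      (x ∈ Dg T ∧ x * x = 1 ∧ ∀ y : T, y * y ≠ x) := by
    intro x
    constructor
    · rintro ⟨a, ha, h⟩
      have hx' : x = u₀ * (u₀⁻¹ * x) := by group
      have h1 : DD x.1 (1 * a) (-1 * 1) := by
        rw [hx']
        exact hu₀.mul h
      rw [one_mul, mul_one] at h1
      refine ⟨⟨_, _, h1⟩, ?_, ?_⟩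
      · apply hone
        have := h1.mul h1
        rw [ha] at this
        simpa using this
      · intro y hy
        obtain ⟨c, hc⟩ := hsqform y
        rw [hy] at hc
        exact hneg (h1.uniq hc).2
    · rintro ⟨⟨a, s, h⟩, hxx, hy⟩
      have h1 := h.mul h
      rw [h.2.1.sq] at h1
      have h2 : DD (x * x).1 (a * a) 1 := h1
      rw [hxx] at h2
      have haa : a * a = 1 := (h2.uniq DD.one).1
      have hs : s = -1 := by
        rcases h.2.1 with hs | hs
        · exfalso
          subst hs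
          have ha2 : (a - 1) * (a + 1) = 0 := by
            linear_combination haa
          rcases mul_eq_zero.1 ha2 with h3 | h3
          · have h4 : a = 1 := sub_eq_zero.1 h3
            subst h4
            exact hy 1 (by rw [mul_one]; exact (hone h).symm)
          · have h4 : a = -1 := eq_neg_of_add_eq_zero_left h3
            subst h4
            have hi : ζ ^ 2 ^ (n + 1) ≠ 0 := pow_ne_zero _ hζ0
            have h5 := DD_mk hi hSg1
            let i₀ : T := ⟨_, mem_D T hT h5⟩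
            apply hy i₀
            apply Subtype.ext
            have h6 := h5.mul h5
            have h7 : ζ ^ 2 ^ (n + 1) * ζ ^ 2 ^ (n + 1) = -1 := by
              rw [← pow_add, ← hζ, hN]
              congr 1
              ring
            rw [h7, one_mul] at h6
            exact h6.eq h
        · exact hs
      subst hs
      refine ⟨a, haa, ?_⟩
      have := hu₀.inv.mul h
      rw [inv_one, one_mul] at this
      have e : (-1 : ZMod q) * -1 = 1 := by ring
      rw [e] at this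
      exact this
  obtain ⟨u, hu, hαu⟩ := fix_coset hP α hr hα (Zg T) u₀ (by
    intro x hx
    rw [hcosetU] at hx ⊢
    obtain ⟨h1, h2, h3⟩ := hx
    refine ⟨(hDst x).2 h1, ?_, ?_⟩
    · rw [← map_mul, h2, map_one]
    · intro y hy
      obtain ⟨y', rfl⟩ := α.surjective y
      apply h3 y'
      apply α.injective
      rw [map_mul, hy])
  obtain ⟨huD, huu, huy⟩ := (hcosetU u).1 hu
  -- `diag(1,-1)` is fixed
  have hαu₀ : α u₀ = u₀ := by
    obtain ⟨a, ha, h⟩ := hu
    have h1 : DD u.1 (1 * a) (-1 * 1) := by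
      have hx' : u = u₀ * (u₀⁻¹ * u) := by group
      rw [hx']
      exact hu₀.mul h
    rw [one_mul, mul_one] at h1
    have ha2 : (a - 1) * (a + 1) = 0 := by
      linear_combination ha
    rcases mul_eq_zero.1 ha2 with h3 | h3
    · have h4 : a = 1 := sub_eq_zero.1 h3
      subst h4
      have : u = u₀ := Subtype.ext (h1.eq hu₀)
      rw [← this]
      exact hαu
    · have h4 : a = -1 := eq_neg_of_add_eq_zero_left h3
      subst h4
      have h5 := hpowN hgD
      rw [ha₁N] at h5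
      have h6 := h1.mul h5
      have e : (-1 : ZMod q) * -1 = 1 := by ring
      rw [e, mul_one] at h6
      have : u₀ = u * g ^ N := Subtype.ext (hu₀.eq h6)
      rw [this, map_mul, map_pow, hαu, hαg]
  -- generator
  have hgen : ∀ a : ZMod q, a ≠ 0 → ∃ k : ℕ, a₁ ^ k = a := by
    intro a ha
    let A₁ : (ZMod q)ˣ := Units.mk0 a₁ ha₁0
    have hord : orderOf A₁ = 2 ^ (n + 3) := by
      apply orderOf_eq_prime_pow (p := 2) (n := n + 2)
      · intro h
        have h1 := congrArg Units.val h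
        simp only [Units.val_pow_eq_pow_val, Units.val_one, Units.val_mk0, A₁] at h1
        rw [← hN, ha₁N] at h1
        exact hneg h1
      · apply Units.ext
        simp only [Units.val_pow_eq_pow_val, Units.val_one, Units.val_mk0, A₁]
        have := hfer a₁ ha₁0
        rwa [hN, ← pow_succ'] at this
    have htop : Subgroup.zpowers A₁ = ⊤ := by
      apply Subgroup.eq_top_of_card_eq
      rw [Nat.card_zpowers, hord, Nat.card_eq_fintype_card, ZMod.card_units q]
      exact (Nat.sub_eq_of_eq_add hq).symm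
    have hmem : Units.mk0 a ha ∈ Subgroup.zpowers A₁ := by
      rw [htop]
      exact Subgroup.mem_top _
    rw [← mem_powers_iff_mem_zpowers] at hmem
    obtain ⟨k, hk⟩ := hmem
    refine ⟨k, ?_⟩
    have h1 := congrArg Units.val hk
    simpa [A₁] using h1
  -- everything diagonal is fixed
  have hfixD : ∀ x : T, x ∈ Dg T → α x = x := by
    rintro x ⟨a, s, h⟩
    obtain ⟨k, hk⟩ := hgen a h.1
    have h1 : DD (g ^ k).1 a (s₁ ^ k) := by
      rw [← hk]
      exact hgD.pow k
    have h2 := h.mul h1.inv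
    rw [mul_inv_cancel₀ h.1] at h2
    have hαgk : α (g ^ k) = g ^ k := by
      rw [map_pow, hαg]
    have hx : x = (x * (g ^ k)⁻¹) * g ^ k := by group
    have h3 : α (x * (g ^ k)⁻¹) = x * (g ^ k)⁻¹ := by
      rcases (h.2.1.mul (h1.2.1)) with h4 | h4
      · rw [h4] at h2
        have : x * (g ^ k)⁻¹ = 1 := hone h2
        rw [this, map_one]
      · rw [h4] at h2
        have : x * (g ^ k)⁻¹ = u₀ := Subtype.ext (h2.eq hu₀)
        rw [this, hαu₀]
    rw [hx, map_mul, h3, hαgk]
  have hfix : α = 1 := by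
    refine MulEquiv.ext fun x => ?_
    rw [MulAut.one_apply]
    by_cases hx : x ∈ Dg T
    · exact hfixD x hx
    · have h1 : t⁻¹ * x ∈ Dg T := by
        obtain ⟨a, s, h⟩ | ⟨a, s, h⟩ := cls T hT t
        · exact absurd ⟨a, s, h⟩ htD
        · obtain ⟨b, s', h'⟩ | ⟨b, s', h'⟩ := cls T hT x
          · exact absurd ⟨b, s', h'⟩ hx
          · exact ⟨_, _, h.inv.mul_AA h'⟩
      have hx' : x = t * (t⁻¹ * x) := by group
      rw [hx', map_mul, hαt, hfixD _ h1]
  rw [hfix, orderOf_one] at hα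
  have : r.Prime := Fact.out
  exact this.one_lt.ne hα

/-- The cyclic subgroup of order four for `q = 3`. -/
def H4 (h3 : ∀ a : ZMod q, a ≠ 0 → a * a = 1) (h2 : (2 : ZMod q) ≠ 0) : Subgroup T where
  carrier := {x | (∃ a : ZMod q, DD x.1 a 1) ∨ (∃ b : ZMod q, AA x.1 b (-1))}
  mul_mem' := by
    rintro x y (⟨a, h⟩ | ⟨a, h⟩) (⟨b, h'⟩ | ⟨b, h'⟩)
    · left
      have := h.mul h'
      rw [one_mul] at this
      exact ⟨_, this⟩
    · right
      have := h.mul_AA h'
      simp only [one_mul] at this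
      exact ⟨_, this⟩
    · right
      have := h.mul_DD h'
      rw [mul_one] at this
      exact ⟨_, this⟩
    · left
      have := h.mul_AA h'
      have e : (-1 : ZMod q) * -1 = 1 := by ring
      rw [e] at this
      exact ⟨_, this⟩
  one_mem' := Or.inl ⟨1, DD.one⟩
  inv_mem' := by
    rintro x (⟨a, h⟩ | ⟨a, h⟩)
    · left
      exact ⟨_, h.inv⟩
    · right
      exact ⟨_, h.inv⟩

theorem main_three (hq : q = 3) (α : MulAut T) (r : ℕ) [Fact r.Prime]
    (hr : r ≠ 2) (hα : orderOf α = r) : False := by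
  haveI : Finite (LE q) := finite_LE
  haveI : Finite T := Subtype.finite
  have hP := pgroup T hT 1 (by rw [hq]; rfl) le_rfl
  haveI : Fact (2 < q) := ⟨by omega⟩
  have hneg : (-1 : ZMod q) ≠ 1 := ZMod.neg_one_ne_one
  have h3 : ∀ a : ZMod q, a ≠ 0 → a * a = 1 := by
    intro a ha
    have := ZMod.pow_card_sub_one_eq_one ha
    rwa [show q - 1 = 2 by omega, pow_two] at this
  have hpm : ∀ a : ZMod q, a ≠ 0 → a = 1 ∨ a = -1 := by
    intro a ha
    have ha2 : (a - 1) * (a + 1) = 0 := by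
      linear_combination h3 a ha
    rcases mul_eq_zero.1 ha2 with h | h
    · exact Or.inl (sub_eq_zero.1 h)
    · exact Or.inr (eq_neg_of_add_eq_zero_left h)
  have h2 : (2 : ZMod q) ≠ 0 := by
    intro h
    apply hneg
    apply neg_eq_of_add_eq_zero_left
    rw [one_add_one_eq_two, h]
  have hSg1 := (Sg.one : Sg (1 : ZMod q))
  have hSgm := (Sg.neg_one : Sg (-1 : ZMod q))
  have hone : ∀ {x : T}, DD x.1 1 1 → x = 1 := by
    intro x h
    exact Subtype.ext (h.eq DD.one)
  have e1 : (-1 : ZMod q) * -1 = 1 := by ring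
  have hc₀ := AA_mk (one_ne_zero : (1 : ZMod q) ≠ 0) hSgm
  let c₀ : T := ⟨_, mem_A T hT hc₀⟩
  have hu₀ := DD_mk (one_ne_zero : (1 : ZMod q) ≠ 0) hSgm
  let u₀ : T := ⟨_, mem_D T hT hu₀⟩
  have hsqD : ∀ {x : T} {a s : ZMod q}, DD x.1 a s → x * x = 1 := by
    intro x a s h
    have h1 := h.mul h
    rw [h3 a h.1, h.2.1.sq] at h1
    exact hone h1
  have hsqA1 : ∀ {x : T} {b : ZMod q}, AA x.1 b 1 → x * x = 1 := by
    intro x b h
    exact hone h.sq
  have hsqAm : ∀ {x : T} {b : ZMod q}, AA x.1 b (-1) → DD (x * x).1 (-1) 1 := by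
    intro x b h
    exact h.sq
  have hcoset1 : ∀ x : T, c₀⁻¹ * x ∈ Zg T ↔ x * x ≠ 1 := by
    intro x
    constructor
    · rintro ⟨a, ha, h⟩ hx
      have hx' : x = c₀ * (c₀⁻¹ * x) := by group
      have h1 : AA x.1 (1 * a) (-1 * 1) := by
        rw [hx']
        exact hc₀.mul_DD h
      rw [mul_one] at h1
      have h4 := h1.sq
      have h5 : DD (x * x).1 (-1) 1 := h4
      rw [hx] at h5
      exact hneg (h5.uniq DD.one).1
    · intro hx
      rcases cls T hT x with ⟨a, s, h⟩ | ⟨b, t, h⟩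
      · exact absurd (hsqD h) hx
      · rcases h.2.1 with ht | ht
        · subst ht
          exact absurd (hsqA1 h) hx
        · subst ht
          refine ⟨b, h3 b h.1, ?_⟩
          have h4 := hc₀.inv.mul_AA h
          have e2 : (-1 : ZMod q) * (-1 * 1)⁻¹ * b = b := by
            rw [mul_one, inv_neg, inv_one]
            ring
          rw [e2, e1] at h4
          exact h4
  obtain ⟨c, hc, hαc⟩ := fix_coset hP α hr hα (Zg T) c₀ (by
    intro x hx
    rw [hcoset1] at hx ⊢
    intro h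
    apply hx
    apply α.injective
    rw [map_mul, h, map_one])
  have hcc : c * c ≠ 1 := (hcoset1 c).1 hc
  obtain ⟨b₀, hcA⟩ : ∃ b₀ : ZMod q, AA c.1 b₀ (-1) := by
    rcases cls T hT c with ⟨a, s, h⟩ | ⟨b, t, h⟩
    · exact absurd (hsqD h) hcc
    · rcases h.2.1 with ht | ht
      · subst ht
        exact absurd (hsqA1 h) hcc
      · subst ht
        exact ⟨b, h⟩
  have hccD := hsqAm hcA
  let H := H4 T h3 h2
  have hcoset2 : ∀ x : T, u₀⁻¹ * x ∈ H ↔ (x * x = 1 ∧ x ≠ 1 ∧ x ≠ c * c) := by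
    intro x
    have hx' : x = u₀ * (u₀⁻¹ * x) := by group
    constructor
    · rintro (⟨a, h⟩ | ⟨b, h⟩)
      · have h1 : DD x.1 (1 * a) (-1 * 1) := by
          rw [hx']
          exact hu₀.mul h
        rw [one_mul, mul_one] at h1
        refine ⟨hsqD h1, ?_, ?_⟩
        · intro hx
          rw [hx] at h1
          exact hneg (h1.uniq DD.one).2
        · intro hx
          rw [hx] at h1
          exact hneg (h1.uniq hccD).2
      · have h1 : AA x.1 (-1 * 1⁻¹ * b) (-1 * -1) := by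
          rw [hx']
          exact hu₀.mul_AA h
        rw [e1] at h1
        refine ⟨hsqA1 h1, ?_, ?_⟩
        · intro hx
          rw [hx] at h1
          exact DD.one.not_AA h1
        · intro hx
          rw [hx] at h1
          exact hccD.not_AA h1
    · rintro ⟨hxx, hx1, hxc⟩
      rcases cls T hT x with ⟨a, s, h⟩ | ⟨b, t, h⟩
      · rcases h.2.1 with hs | hs
        · subst hs
          exfalso
          rcases hpm a h.1 with ha | ha
          · subst ha
            exact hx1 (hone h)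
          · subst ha
            exact hxc (Subtype.ext (h.eq hccD))
        · subst hs
          left
          have h4 := hu₀.inv.mul h
          rw [e1] at h4
          exact ⟨_, h4⟩
      · rcases h.2.1 with ht | ht
        · subst ht
          right
          have h4 := hu₀.inv.mul_AA h
          rw [mul_one] at h4
          exact ⟨_, h4⟩
        · subst ht
          exfalso
          have h5 := hsqAm h
          rw [hxx] at h5
          exact hneg (h5.uniq DD.one).1
  obtain ⟨y, hy, hαy⟩ := fix_coset hP α hr hα H u₀ (by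
    intro x hx
    rw [hcoset2] at hx ⊢
    obtain ⟨h5, h6, h7⟩ := hx
    refine ⟨?_, ?_, ?_⟩
    · rw [← map_mul, h5, map_one]
    · intro h
      apply h6
      apply α.injective
      rw [h, map_one]
    · intro h
      apply h7
      apply α.injective
      rw [h, map_mul, hαc])
  -- everything in `H` is fixed
  have hfixH : ∀ x : T, x ∈ H → α x = x := by
    rintro x (⟨a, h⟩ | ⟨b, h⟩)
    · rcases hpm a h.1 with ha | ha
      · subst ha
        rw [hone h, map_one]
      · subst ha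
        have : x = c * c := Subtype.ext (h.eq hccD)
        rw [this, map_mul, hαc]
    · have hb0 : b / b₀ ≠ 0 := div_ne_zero h.1 hcA.1
      rcases hpm _ hb0 with h5 | h5
      · have : b = b₀ := by
          field_simp [hcA.1] at h5
          exact h5
        subst this
        have : x = c := Subtype.ext (h.eq hcA)
        rw [this, hαc]
      · have hb : b₀ * -1 = b := by
          have h0 := hcA.1
          field_simp at h5
          rw [h5]
          ring
        have h6 := hcA.mul_DD hccD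
        rw [hb, mul_one] at h6
        have : x = c * (c * c) := Subtype.ext (h.eq h6)
        rw [this, map_mul, map_mul, hαc]
  have hcov : ∀ x : T, x ∈ H ∨ u₀⁻¹ * x ∈ H := by
    intro x
    rcases cls T hT x with ⟨a, s, h⟩ | ⟨b, t, h⟩
    · rcases h.2.1 with hs | hs
      · subst hs
        exact Or.inl (Or.inl ⟨a, h⟩)
      · subst hs
        right
        left
        have h4 := hu₀.inv.mul h
        rw [e1] at h4
        exact ⟨_, h4⟩
    · rcases h.2.1 with ht | ht
      · subst ht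
        right
        right
        have h4 := hu₀.inv.mul_AA h
        rw [mul_one] at h4
        exact ⟨_, h4⟩
      · subst ht
        exact Or.inl (Or.inr ⟨b, h⟩)
  have hfix : α = 1 := by
    refine MulEquiv.ext fun x => ?_
    rw [MulAut.one_apply]
    rcases hcov x with hx | hx
    · exact hfixH x hx
    · have h1 : y⁻¹ * x ∈ H := by
        have h2 : y⁻¹ * x = (u₀⁻¹ * y)⁻¹ * (u₀⁻¹ * x) := by group
        rw [h2]
        exact H.mul_mem (H.inv_mem hy) hx
      have hx' : x = y * (y⁻¹ * x) := by group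
      rw [hx', map_mul, hαy, hfixH _ h1]
  rw [hfix, orderOf_one] at hα
  have : r.Prime := Fact.out
  exact this.one_lt.ne hα

theorem main (m : ℕ) (hq : q = 2 ^ m + 1) (hq5 : q ≠ 5) : IsPGroup 2 (MulAut T) := by
  rcases Nat.lt_or_ge m 3 with hm | hm
  · interval_cases m
    · exact case_two T hT (by simpa using hq)
    · apply card_prime_eq_of T hT
      intro α r _ hr hα
      exact main_three T hT (by simpa using hq) α r hr hα
    · exact absurd (by simpa using hq) hq5
  · apply card_prime_eq_of T hT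
    intro α r _ hr hα
    exact main_big T hT m hq hm α r hr hα

end main

end CfsgLib.Rec.FermatAut
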