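import Cfsg.Agent.Lib.Dickson.Tri
import Cfsg.Agent.Lib.Rec.Order60
import Cfsg.Agent.Lib.Char.Burnside
import Cfsg.Agent.Lib.Invol.BrauerFowler
import Cfsg.Agent.S0494

set_option autoImplicit false

namespace CfsgLib.Rec.SL25

abbrev S5 := Matrix.SpecialLinearGroup (Fin 2) (ZMod 5)

def X5 : S5 := ⟨!![0, -1; 1, -1], by decide⟩
def Y5 : S5 := ⟨!![1, 1; 0, 1], by decide⟩
def Z5 : S5 := ⟨!![-1, 0; 0, -1], by decide⟩

theorem rel5 : X5 ^ 3 = 1 ∧ Y5 ^ 5 = 1 ∧ Z5 ^ 2 = 1 ∧ (X5 * Y5) ^ 2 = Z5 ∧ Z5 * X5 = X5 * Z5 ∧ Z5 * Y5 = Y5 * Z5 := by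
  decide +kernel

theorem words5 : ∀ g : S5, ∃ i j k : Fin 5, ∃ l : Fin 4,
    g = Y5 ^ (i : ℕ) * (X5 * Y5) * Y5 ^ (j : ℕ) * (X5 * Y5) * Y5 ^ (k : ℕ) * (X5 * Y5) ^ ((l : ℕ) + 1) := by
  decide +kernel

theorem card5 : Nat.card S5 = 120 := by
  rw [Nat.card_eq_fintype_card]
  decide +kernel

/-- The relator set. -/
abbrev Rel : Set (FreeGroup (Fin 3)) :=
  {FreeGroup.of (0 : Fin 3) ^ 3, FreeGroup.of (1 : Fin 3) ^ 5, FreeGroup.of (2 : Fin 3) ^ 2,
        (FreeGroup.of (2 : Fin 3))⁻¹ * FreeGroup.of 0 * FreeGroup.of 2 * (FreeGroup.of (0 : Fin 3))⁻¹,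
        (FreeGroup.of (2 : Fin 3))⁻¹ * FreeGroup.of 1 * FreeGroup.of 2 * (FreeGroup.of (1 : Fin 3))⁻¹,
        (FreeGroup.of (0 : Fin 3) * FreeGroup.of 1) ^ 2 * (FreeGroup.of (2 : Fin 3))⁻¹}

abbrev Pr := PresentedGroup Rel

theorem pres_hom {H : Type*} [Group H] (x y z : H) (hx : x ^ 3 = 1) (hy : y ^ 5 = 1) (hz : z ^ 2 = 1)
    (hzx : z * x = x * z) (hzy : z * y = y * z) (hxy : (x * y) ^ 2 = z) :
    ∃ f : Pr →* H, f (PresentedGroup.of 0) = x ∧ f (PresentedGroup.of 1) = y ∧ f (PresentedGroup.of 2) = z := by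
  let v : Fin 3 → H := ![x, y, z]
  have hv : ∀ r ∈ Rel, FreeGroup.lift v r = 1 := by
    intro r hr
    rcases hr with rfl | rfl | rfl | rfl | rfl | rfl
    · simp [v, hx]
    · simp [v, hy]
    · simp [v, hz]
    · simp only [map_mul, map_inv, FreeGroup.lift_apply_of]
      show z⁻¹ * x * z * x⁻¹ = 1
      rw [mul_assoc z⁻¹, ← hzx]
      group
    · simp only [map_mul, map_inv, FreeGroup.lift_apply_of]
      show z⁻¹ * y * z * y⁻¹ = 1
      rw [mul_assoc z⁻¹, ← hzy]
      group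
    · simp only [map_mul, map_inv, map_pow, FreeGroup.lift_apply_of]
      show (x * y) ^ 2 * z⁻¹ = 1
      rw [hxy]
      group
  refine ⟨PresentedGroup.toGroup hv, ?_, ?_, ?_⟩
  · simp [v]
  · simp [v]
  · simp [v]

section pres

local notation "xx" => (PresentedGroup.of (0 : Fin 3) : Pr)
local notation "yy" => (PresentedGroup.of (1 : Fin 3) : Pr)
local notation "zz" => (PresentedGroup.of (2 : Fin 3) : Pr)

theorem pr_rel : xx ^ 3 = 1 ∧ yy ^ 5 = 1 ∧ zz ^ 2 = 1 ∧ zz * xx = xx * zz ∧ zz * yy = yy * zz ∧ (xx * yy) ^ 2 = zz := by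
  have hrel : ∀ r ∈ Rel, PresentedGroup.mk Rel r = 1 := fun r hr => PresentedGroup.one_of_mem hr
  have h1 := hrel (FreeGroup.of (0 : Fin 3) ^ 3) (by simp [Rel])
  have h2 := hrel (FreeGroup.of (1 : Fin 3) ^ 5) (by simp [Rel])
  have h3 := hrel (FreeGroup.of (2 : Fin 3) ^ 2) (by simp [Rel])
  have h4 := hrel ((FreeGroup.of (2 : Fin 3))⁻¹ * FreeGroup.of 0 * FreeGroup.of 2 * (FreeGroup.of (0 : Fin 3))⁻¹) (by simp [Rel])
  have h5 := hrel ((FreeGroup.of (2 : Fin 3))⁻¹ * FreeGroup.of 1 * FreeGroup.of 2 * (FreeGroup.of (1 : Fin 3))⁻¹) (by simp [Rel])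
  have h6 := hrel ((FreeGroup.of (0 : Fin 3) * FreeGroup.of 1) ^ 2 * (FreeGroup.of (2 : Fin 3))⁻¹) (by simp [Rel])
  simp only [map_pow, map_mul, map_inv] at h1 h2 h3 h4 h5 h6
  have e0 : PresentedGroup.mk Rel (FreeGroup.of (0 : Fin 3)) = xx := rfl
  have e1 : PresentedGroup.mk Rel (FreeGroup.of (1 : Fin 3)) = yy := rfl
  have e2 : PresentedGroup.mk Rel (FreeGroup.of (2 : Fin 3)) = zz := rfl
  rw [e0] at h1 h4 h6
  rw [e1] at h2 h5 h6
  rw [e2] at h3 h4 h5 h6
  refine ⟨h1, h2, h3, ?_, ?_, ?_⟩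
  · have : zz⁻¹ * xx * zz = xx := by
      have := mul_inv_eq_one.1 h4
      exact this
    calc zz * xx = zz * (zz⁻¹ * xx * zz) := by rw [this]
      _ = xx * zz := by group
  · have : zz⁻¹ * yy * zz = yy := by
      have := mul_inv_eq_one.1 h5
      exact this
    calc zz * yy = zz * (zz⁻¹ * yy * zz) := by rw [this]
      _ = yy * zz := by group
  · exact mul_inv_eq_one.1 h6

theorem pr_card_le : Nat.card Pr ≠ 0 ∧ Nat.card Pr ≤ 120 := by
  classical
  obtain ⟨h1, h2, h3, h4, h5, h6⟩ := pr_rel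
  -- the central subgroup
  let Z : Subgroup Pr := Subgroup.zpowers zz
  have hcomm : ∀ g : Pr, g * zz = zz * g := by
    intro g
    have hcl : g ∈ (⊤ : Subgroup Pr) := trivial
    rw [← PresentedGroup.closure_range_of] at hcl
    induction hcl using Subgroup.closure_induction with
    | mem x hx =>
      obtain ⟨i, rfl⟩ := hx
      fin_cases i
      · exact h4.symm
      · exact h5.symm
      · rfl
    | one => simp
    | mul a b _ _ ha hb =>
      rw [mul_assoc, hb, ← mul_assoc, ha, mul_assoc]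
    | inv a _ ha =>
      have : a⁻¹ * zz * a = zz := by
        rw [mul_assoc, ← ha]
        group
      calc a⁻¹ * zz = a⁻¹ * zz * a * a⁻¹ := by group
        _ = zz * a⁻¹ := by rw [this]
  haveI hZn : Z.Normal := by
    constructor
    intro n hn g
    obtain ⟨k, rfl⟩ := Subgroup.mem_zpowers_iff.1 hn
    refine Subgroup.mem_zpowers_iff.2 ⟨k, ?_⟩
    have hc : Commute g zz := hcomm g
    have : g * zz ^ k = zz ^ k * g := (hc.zpow_right k)
    rw [this]
    group
  have hZc : Nat.card Z ≤ 2 := by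
    rw [Nat.card_zpowers]
    exact orderOf_le_of_pow_eq_one (by norm_num) h3
  let q : Pr →* Pr ⧸ Z := QuotientGroup.mk' Z
  have hqz : q zz = 1 := by
    rw [QuotientGroup.mk'_apply, QuotientGroup.eq_one_iff]
    exact Subgroup.mem_zpowers _
  have hq1 : (q xx * q yy) ^ 2 = 1 := by
    rw [← map_mul, ← map_pow, h6, hqz]
  have hq2 : ((q xx)⁻¹) ^ 3 = 1 := by
    rw [inv_pow, ← map_pow, h1, map_one, inv_one]
  have hq3 : (q xx * q yy * (q xx)⁻¹) ^ 5 = 1 := by
    have : (q xx * q yy * (q xx)⁻¹) ^ 5 = q xx * (q yy) ^ 5 * (q xx)⁻¹ := by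
      rw [conj_pow]
    rw [this, ← map_pow, h2, map_one, mul_one, mul_inv_cancel]
  obtain ⟨φ, hφx, hφy⟩ := CfsgLib.Present.hom_A5 (q xx * q yy) ((q xx)⁻¹) hq1 hq2 hq3
  have hsurj : Function.Surjective φ := by
    rw [← MonoidHom.range_eq_top, eq_top_iff]
    rintro g -
    obtain ⟨g, rfl⟩ := QuotientGroup.mk'_surjective Z g
    have hcl : g ∈ (⊤ : Subgroup Pr) := trivial
    rw [← PresentedGroup.closure_range_of] at hcl
    induction hcl using Subgroup.closure_induction with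
    | mem x hx =>
      obtain ⟨i, rfl⟩ := hx
      fin_cases i
      · refine ⟨CfsgLib.Present.yA5⁻¹, ?_⟩
        rw [map_inv, hφy, inv_inv]
        rfl
      · refine ⟨CfsgLib.Present.yA5 * CfsgLib.Present.xA5, ?_⟩
        rw [map_mul, hφx, hφy]
        show (q xx)⁻¹ * (q xx * q yy) = q yy
        group
      · refine ⟨1, ?_⟩
        rw [map_one]
        exact hqz.symm
    | one => exact Subgroup.one_mem _
    | mul a b _ _ ha hb =>
      rw [map_mul]
      exact Subgroup.mul_mem _ ha hb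
    | inv a _ ha =>
      rw [map_inv]
      exact Subgroup.inv_mem _ ha
  have hQc : Nat.card (Pr ⧸ Z) ≤ 60 := by
    have h := Nat.card_le_card_of_surjective φ hsurj
    have h60 : Nat.card (alternatingGroup (Fin 5)) = 60 := by
      rw [Nat.card_eq_fintype_card]; decide +kernel
    omega
  have hQ0 : Nat.card (Pr ⧸ Z) ≠ 0 := by
    haveI : Finite (Pr ⧸ Z) := Finite.of_surjective φ hsurj
    exact Nat.card_pos.ne'
  have hZ0 : Nat.card Z ≠ 0 := by
    rw [Nat.card_zpowers]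
    have : orderOf zz ≠ 0 := (orderOf_pos_iff.2 (isOfFinOrder_iff_pow_eq_one.2 ⟨2, by norm_num, h3⟩)).ne'
    exact this
  have hmul := Subgroup.card_mul_index Z
  have hidx : Z.index = Nat.card (Pr ⧸ Z) := rfl
  rw [hidx] at hmul
  constructor
  · rw [← hmul]
    exact Nat.mul_ne_zero hZ0 hQ0
  · rw [← hmul]
    nlinarith

theorem pres_iso : Nonempty (Pr ≃* S5) := by
  classical
  obtain ⟨r1, r2, r3, r4, r5, r6⟩ := rel5
  obtain ⟨f, hf0, hf1, hf2⟩ := pres_hom X5 Y5 Z5 r1 r2 r3 r5 r6 r4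
  have hsurj : Function.Surjective f := by
    intro g
    obtain ⟨i, j, k, l, rfl⟩ := words5 g
    refine ⟨yy ^ (i : ℕ) * (xx * yy) * yy ^ (j : ℕ) * (xx * yy) * yy ^ (k : ℕ) * (xx * yy) ^ ((l : ℕ) + 1), ?_⟩
    simp only [map_mul, map_pow, hf0, hf1]
  obtain ⟨h0, hle⟩ := pr_card_le
  haveI : Finite Pr := Nat.finite_of_card_ne_zero h0
  have hbij : Function.Bijective f := by
    apply Function.Surjective.bijective_of_nat_card_le hsurj
    rw [card5]
    exact hle
  exact ⟨MulEquiv.ofBijective f hbij⟩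

end pres

universe u

theorem solv_ext {G : Type u} [Group G] (K : Subgroup G) [K.Normal] (h1 : Group.IsSolvable K) (h2 : Group.IsSolvable (G ⧸ K)) :
    Group.IsSolvable G := by
  haveI := h1
  haveI := h2
  refine solvable_of_ker_le_range K.subtype (QuotientGroup.mk' K) ?_
  rintro x hx
  rw [MonoidHom.mem_ker, QuotientGroup.mk'_apply, QuotientGroup.eq_one_iff] at hx
  exact ⟨⟨x, hx⟩, rfl⟩

theorem solv_pq {p q : ℕ} (hp : p.Prime) (hq : q.Prime) {G : Type u} [Group G] [Finite G] (a b : ℕ)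
    (h : Nat.card G = p ^ a * q ^ b) : Group.IsSolvable G :=
  CfsgLib.Char.solvable_of_card_eq hp hq _ G rfl ⟨a, b, h⟩

theorem solv30 {G : Type u} [Group G] [Finite G] (h : Nat.card G = 30) : Group.IsSolvable G := by
  obtain ⟨M, hM⟩ := CfsgLib.Invol.exists_index_two_of_two_mul_odd (G := G) (m := 15) (by rw [h]) (by decide)
  haveI hMn : M.Normal := Subgroup.normal_of_index_eq_two hM
  have hMc : Nat.card M = 15 := by
    have := Subgroup.card_mul_index M
    rw [hM, h] at this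
    omega
  apply solv_ext M
  · exact solv_pq (p := 3) (q := 5) (by norm_num) (by norm_num) 1 1 (by rw [hMc]; norm_num)
  · have : Nat.card (G ⧸ M) = 2 := hM
    exact solv_pq (p := 2) (q := 3) (by norm_num) (by norm_num) 1 0 (by rw [this]; norm_num)

theorem q8_unique : ∀ a b : QuaternionGroup 2, a ^ 2 = 1 → b ^ 2 = 1 → a ≠ 1 → b ≠ 1 → a = b := by
  decide

section main

variable {G : Type u} [Group G] [Finite G]

theorem pow_two_involution {T : Subgroup G} (hT : IsPGroup 2 T) {s : G} (hs : s ∈ T) (hs1 : s ≠ 1) :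
    ∃ n : ℕ, (s ^ n) ^ 2 = 1 ∧ s ^ n ≠ 1 := by
  classical
  obtain ⟨k, hk⟩ := hT ⟨s, hs⟩
  have hk' : s ^ (2 ^ k) = 1 := congrArg Subtype.val hk
  have hex : ∃ k, s ^ (2 ^ k) = 1 := ⟨k, hk'⟩
  have hmin := Nat.find_spec hex
  have hpos : Nat.find hex ≠ 0 := by
    intro h0
    rw [h0] at hmin
    simp at hmin
    exact hs1 hmin
  obtain ⟨m, hm⟩ := Nat.exists_eq_succ_of_ne_zero hpos
  refine ⟨2 ^ m, ?_, ?_⟩
  · rw [← pow_mul, ← pow_succ, ← Nat.succ_eq_add_one, ← hm]
    exact hmin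
  · exact Nat.find_min hex (by omega)

theorem iso_of_q8 (hc : Nat.card G = 120) (hns : ¬ Group.IsSolvable G)
    (hQ : ∀ P : Sylow 2 G, Nonempty ((P : Subgroup G) ≃* QuaternionGroup 2)) : Nonempty (G ≃* S5) := by
  classical
  letI : Fintype G := Fintype.ofFinite G
  haveI f5 : Fact (Nat.Prime 5) := ⟨by norm_num⟩
  haveI f2 : Fact (Nat.Prime 2) := ⟨by norm_num⟩
  have hp5 : ∀ P : Sylow 5 G, Nat.card (P : Subgroup G) = 5 :=
    fun P => CfsgLib.Rec.card_sylow5 (K := G) 24 (by rw [hc]) (by norm_num) P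
  obtain ⟨P₀⟩ : Nonempty (Sylow 5 G) := inferInstance
  have hn1 : Nat.card (Sylow 5 G) % 5 = 1 := card_sylow_modEq_one 5 G
  have hn2 : Nat.card (Sylow 5 G) ∣ (P₀ : Subgroup G).index := P₀.card_dvd_index
  have hidx : (P₀ : Subgroup G).index = 24 := by
    have := Subgroup.card_mul_index (P₀ : Subgroup G)
    rw [hp5, hc] at this
    omega
  rw [hidx] at hn2
  -- two or more Sylow 5-subgroups
  have hn3 : Nat.card (Sylow 5 G) ≠ 1 := by
    intro h1
    haveI : Subsingleton (Sylow 5 G) := (Nat.card_eq_one_iff_unique.1 h1).1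
    haveI hN : (P₀ : Subgroup G).Normal := Sylow.normal_of_subsingleton P₀
    apply hns
    apply solv_ext (P₀ : Subgroup G)
    · exact solv_pq (p := 5) (q := 2) (by norm_num) (by norm_num) 1 0 (by rw [hp5]; norm_num)
    · have : Nat.card (G ⧸ (P₀ : Subgroup G)) = 24 := hidx
      exact solv_pq (p := 2) (q := 3) (by norm_num) (by norm_num) 3 1 (by rw [this]; norm_num)
  have hn6 : Nat.card (Sylow 5 G) = 6 := by
    have hle := Nat.le_of_dvd (by norm_num) hn2
    interval_cases h : Nat.card (Sylow 5 G) <;> first | rfl | omega | (exfalso; revert hn2; decide)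
  -- involutions act trivially on the Sylow 5-subgroups
  have hinv : ∀ (T : Sylow 2 G) (x y : G), x ∈ (T : Subgroup G) → y ∈ (T : Subgroup G) → x ^ 2 = 1 → y ^ 2 = 1 →
      x ≠ 1 → y ≠ 1 → x = y := by
    intro T x y hx hy hx2 hy2 hx1 hy1
    obtain ⟨e⟩ := hQ T
    have := q8_unique (e ⟨x, hx⟩) (e ⟨y, hy⟩)
      (by rw [← map_pow]; convert map_one e; exact Subtype.ext hx2)
      (by rw [← map_pow]; convert map_one e; exact Subtype.ext hy2)
      (by
        intro h
        have h' := e.map_eq_one_iff.1 h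
        exact hx1 (congrArg Subtype.val h'))
      (by
        intro h
        have h' := e.map_eq_one_iff.1 h
        exact hy1 (congrArg Subtype.val h'))
    have h2 := e.injective this
    exact congrArg Subtype.val h2
  have hTcard : ∀ T : Sylow 2 G, Nat.card (T : Subgroup G) = 8 := by
    intro T
    obtain ⟨e⟩ := hQ T
    rw [Nat.card_congr e.toEquiv, Nat.card_eq_fintype_card]
    decide
  have hfix : ∀ (t : G), t ^ 2 = 1 → t ≠ 1 → ∀ ω : Sylow 5 G, t • ω = ω := by
    intro t ht2 ht1 ω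
    have hpg : IsPGroup 2 (Subgroup.zpowers t) := by
      apply IsPGroup.of_card (n := 1)
      rw [Nat.card_zpowers, pow_one]
      exact orderOf_eq_prime ht2 ht1
    obtain ⟨T, hT⟩ := hpg.exists_le_sylow
    have htT : t ∈ (T : Subgroup G) := hT (Subgroup.mem_zpowers t)
    letI : Fintype (T : Subgroup G) := Fintype.ofFinite _
    letI : Fintype (Sylow 5 G) := Fintype.ofFinite _
    have hcardlt : Fintype.card (Sylow 5 G) < Fintype.card (T : Subgroup G) := by
      rw [← Nat.card_eq_fintype_card, ← Nat.card_eq_fintype_card, hn6, hTcard]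
      norm_num
    obtain ⟨g, h, hgh, he⟩ := Fintype.exists_ne_map_eq_of_card_lt
      (fun g : (T : Subgroup G) => (g : G) • ω) hcardlt
    have he' : ((g : G)⁻¹ * (h : G)) • ω = ω := by
      rw [mul_smul]
      have : (g : G) • ω = (h : G) • ω := he
      rw [← this, inv_smul_smul]
    have hsT : (g : G)⁻¹ * (h : G) ∈ (T : Subgroup G) := T.1.mul_mem (T.1.inv_mem g.2) h.2
    have hs1 : (g : G)⁻¹ * (h : G) ≠ 1 := by
      intro h1
      apply hgh
      apply Subtype.ext
      exact (inv_mul_eq_one.1 h1)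
    obtain ⟨n, hn2', hn1'⟩ := pow_two_involution T.isPGroup' hsT hs1
    have hpw : ((g : G)⁻¹ * (h : G)) ^ n • ω = ω :=
      (MulAction.stabilizer G ω).pow_mem he' n
    have := hinv T _ _ (T.1.pow_mem hsT n) htT hn2' ht2 hn1' ht1
    rw [← this]
    exact hpw
  -- an involution
  obtain ⟨t₀, ht₀⟩ : ∃ t₀ : G, orderOf t₀ = 2 := exists_prime_orderOf_dvd_card' 2 (by rw [hc]; norm_num)
  have ht₀2 : t₀ ^ 2 = 1 := by rw [← ht₀]; exact pow_orderOf_eq_one t₀
  have ht₀1 : t₀ ≠ 1 := by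
    rintro rfl
    rw [orderOf_one] at ht₀
    omega
  -- the kernel
  let K : Subgroup G := (MulAction.toPermHom G (Sylow 5 G)).ker
  haveI hKn : K.Normal := MonoidHom.normal_ker _
  have hKmem : ∀ g : G, g ∈ K ↔ ∀ ω : Sylow 5 G, g • ω = ω := by
    intro g
    show (MulAction.toPermHom G (Sylow 5 G)) g = 1 ↔ _
    rw [Equiv.ext_iff]
    rfl
  have ht₀K : t₀ ∈ K := (hKmem t₀).2 (hfix t₀ ht₀2 ht₀1)
  have hKN : K ≤ (Subgroup.normalizer ((P₀ : Subgroup G) : Set G)) := by
    intro g hg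
    have := (hKmem g).1 hg P₀
    exact P₀.smul_eq_iff_mem_normalizer.1 this
  have hNc : Nat.card (Subgroup.normalizer ((P₀ : Subgroup G) : Set G)) = 20 := by
    have h1 := P₀.card_eq_index_normalizer
    have h2 := Subgroup.card_mul_index (Subgroup.normalizer ((P₀ : Subgroup G) : Set G))
    have h3 : (Subgroup.normalizer ((P₀ : Subgroup G) : Set G)).index = 6 := by
      rw [← hn6, h1]
      rfl
    rw [h3, hc] at h2
    omega
  have hK20 : Nat.card K ∣ 20 := by
    rw [← hNc]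
    exact Subgroup.card_dvd_of_le hKN
  have hK5 : ¬ 5 ∣ Nat.card K := by
    intro h5
    obtain ⟨y, hy⟩ := exists_prime_orderOf_dvd_card' (G := K) 5 h5
    have hy' : orderOf (y : G) = 5 := by
      rw [← hy]
      exact Subgroup.orderOf_coe y
    have hzc : Nat.card (Subgroup.zpowers (y : G)) = 5 := by
      rw [Nat.card_zpowers, hy']
    have hpg : IsPGroup 5 (Subgroup.zpowers (y : G)) := by
      apply IsPGroup.of_card (n := 1)
      rw [hzc, pow_one]
    have heq : ∀ P : Sylow 5 G, (P : Subgroup G) = Subgroup.zpowers (y : G) := by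
      intro P
      have hfp : P ∈ MulAction.fixedPoints (Subgroup.zpowers (y : G)) (Sylow 5 G) := by
        rintro ⟨g, hg⟩
        obtain ⟨k, rfl⟩ := Subgroup.mem_zpowers_iff.1 hg
        have hyK : (y : G) ^ k ∈ K := K.zpow_mem y.2 k
        exact (hKmem _).1 hyK P
      have hle := hpg.sylow_mem_fixedPoints_iff.1 hfp
      symm
      apply Subgroup.eq_of_le_of_card_ge hle
      rw [hp5, hzc]
    apply hn3
    rw [Nat.card_eq_one_iff_unique]
    refine ⟨⟨fun P Q => ?_⟩, ⟨P₀⟩⟩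
    apply Sylow.ext
    rw [heq P, heq Q]
  have hK2 : 2 ∣ Nat.card K := by
    rw [← ht₀]
    have := Subgroup.orderOf_dvd_natCard K ht₀K
    exact this
  have hKcases : Nat.card K = 2 ∨ Nat.card K = 4 := by
    have hle := Nat.le_of_dvd (by norm_num) hK20
    interval_cases h : Nat.card K <;> first | (left; rfl) | (right; rfl) | omega | (exfalso; revert hK20; decide) | (exfalso; revert hK2; decide) | (exfalso; revert hK5; decide)
  have hK2' : Nat.card K = 2 := by
    rcases hKcases with h | h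
    · exact h
    · exfalso
      apply hns
      apply solv_ext K
      · exact solv_pq (p := 2) (q := 3) (by norm_num) (by norm_num) 2 0 (by rw [h]; norm_num)
      · apply solv30
        have := Subgroup.card_mul_index K
        rw [h, hc] at this
        have h3 : K.index = 30 := by omega
        exact h3
  -- the unique involution
  have hKeq : ∀ g ∈ K, g = 1 ∨ g = t₀ := by
    intro g hg
    by_contra hne
    push_neg at hne
    have hsub : ({1, ⟨t₀, ht₀K⟩, ⟨g, hg⟩} : Finset K).card ≤ Nat.card K := by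
      rw [Nat.card_eq_fintype_card]
      exact Finset.card_le_univ _
    rw [hK2', Finset.card_insert_of_notMem, Finset.card_insert_of_notMem, Finset.card_singleton] at hsub
    · omega
    · simp only [Finset.mem_singleton, Subtype.mk.injEq]
      exact fun h => hne.2 h.symm
    · simp only [Finset.mem_insert, Finset.mem_singleton, not_or]
      exact ⟨fun h => ht₀1 (congrArg Subtype.val h).symm, fun h => hne.1 (congrArg Subtype.val h).symm⟩
  have huniq : ∀ t : G, t ^ 2 = 1 → t ≠ 1 → t = t₀ := by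
    intro t ht2 ht1
    have : t ∈ K := (hKmem t).2 (hfix t ht2 ht1)
    rcases hKeq t this with h | h
    · exact absurd h ht1
    · exact h
  have hcentral : ∀ g : G, g * t₀ = t₀ * g := by
    intro g
    have h1 : (g * t₀ * g⁻¹) ^ 2 = 1 := by
      rw [conj_pow, ht₀2]
      simp
    have h2 : g * t₀ * g⁻¹ ≠ 1 := by
      intro h
      apply ht₀1
      have : g * t₀ = g := by
        have := mul_inv_eq_one.1 h
        exact this
      simpa using this
    have := huniq _ h1 h2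
    exact mul_inv_eq_iff_eq_mul.1 this
  have hKsq : ∀ g ∈ K, g ^ 2 = 1 := by
    intro g hg
    rcases hKeq g hg with h | h
    · rw [h, one_pow]
    · rw [h, ht₀2]
  -- the quotient
  have hQc : Nat.card (G ⧸ K) = 60 := by
    have := Subgroup.card_mul_index K
    rw [hK2', hc] at this
    have h3 : K.index = 60 := by omega
    exact h3
  have hKsolv : Group.IsSolvable K := solv_pq (p := 2) (q := 3) (by norm_num) (by norm_num) 1 0 (by rw [hK2']; norm_num)
  have hQns : ¬ Group.IsSolvable (G ⧸ K) := fun h => hns (solv_ext K hKsolv h)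
  haveI hsimple : IsSimpleGroup (G ⧸ K) := by
    apply CfsgLib.Rec.simple_of_60 hQc
    intro Q hQn hQ5
    apply hQns
    haveI := hQn
    apply solv_ext Q
    · exact solv_pq (p := 5) (q := 2) (by norm_num) (by norm_num) 1 0 (by rw [hQ5]; norm_num)
    · have := Subgroup.card_mul_index Q
      rw [hQ5, hQc] at this
      have h3 : Q.index = 12 := by omega
      have h4 : Nat.card ((G ⧸ K) ⧸ Q) = 12 := h3
      exact solv_pq (p := 2) (q := 3) (by norm_num) (by norm_num) 2 1 (by rw [h4]; norm_num)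
  obtain ⟨e⟩ := Cfsg.Agent.S0494.result (G := G ⧸ K) hQc
  let π : G →* alternatingGroup (Fin 5) := e.toMonoidHom.comp (QuotientGroup.mk' K)
  have hπs : Function.Surjective π := e.surjective.comp (QuotientGroup.mk'_surjective K)
  have hπk : ∀ g : G, π g = 1 → g ∈ K := by
    intro g hg
    have : (QuotientGroup.mk' K) g = 1 := e.map_eq_one_iff.1 hg
    rwa [QuotientGroup.mk'_apply, QuotientGroup.eq_one_iff] at this
  have hπk' : ∀ g ∈ K, π g = 1 := by
    intro g hg
    show e ((QuotientGroup.mk' K) g) = 1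
    rw [e.map_eq_one_iff, QuotientGroup.mk'_apply, QuotientGroup.eq_one_iff]
    exact hg
  have hA : ((CfsgLib.Present.yA5⁻¹) ^ 3 = 1 ∧ (CfsgLib.Present.yA5 * CfsgLib.Present.xA5) ^ 5 = 1 ∧
      (CfsgLib.Present.yA5⁻¹) ^ 4 = CfsgLib.Present.yA5⁻¹ ∧
      (CfsgLib.Present.yA5 * CfsgLib.Present.xA5) ^ 6 = CfsgLib.Present.yA5 * CfsgLib.Present.xA5 ∧
      CfsgLib.Present.yA5⁻¹ * (CfsgLib.Present.yA5 * CfsgLib.Present.xA5) = CfsgLib.Present.xA5 ∧
      CfsgLib.Present.xA5 ^ 2 = 1 ∧ CfsgLib.Present.xA5 ≠ 1) := by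
    decide +kernel
  obtain ⟨hA1, hA2, hA3, hA4, hA5, hA6, hA7⟩ := hA
  obtain ⟨a', ha'⟩ := hπs CfsgLib.Present.yA5⁻¹
  obtain ⟨b', hb'⟩ := hπs (CfsgLib.Present.yA5 * CfsgLib.Present.xA5)
  have ha3 : (a' ^ 3) ^ 2 = 1 := by
    apply hKsq
    apply hπk
    rw [map_pow, ha', hA1]
  have hb5 : (b' ^ 5) ^ 2 = 1 := by
    apply hKsq
    apply hπk
    rw [map_pow, hb', hA2]
  have hx3 : (a' ^ 4) ^ 3 = 1 := by
    calc (a' ^ 4) ^ 3 = ((a' ^ 3) ^ 2) ^ 2 := by simp only [← pow_mul]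
      _ = 1 := by rw [ha3, one_pow]
  have hy5 : (b' ^ 6) ^ 5 = 1 := by
    calc (b' ^ 6) ^ 5 = ((b' ^ 5) ^ 2) ^ 3 := by simp only [← pow_mul]
      _ = 1 := by rw [hb5, one_pow]
  have hπx : π (a' ^ 4) = CfsgLib.Present.yA5⁻¹ := by rw [map_pow, ha', hA3]
  have hπy : π (b' ^ 6) = CfsgLib.Present.yA5 * CfsgLib.Present.xA5 := by rw [map_pow, hb', hA4]
  have hπw : π (a' ^ 4 * b' ^ 6) = CfsgLib.Present.xA5 := by rw [map_mul, hπx, hπy, hA5]
  have hw1 : a' ^ 4 * b' ^ 6 ≠ 1 := by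
    intro h
    rw [h, map_one] at hπw
    exact hA7 hπw.symm
  have hwK : (a' ^ 4 * b' ^ 6) ^ 2 ∈ K := by
    apply hπk
    rw [map_pow, hπw, hA6]
  have hw2 : (a' ^ 4 * b' ^ 6) ^ 2 = t₀ := by
    rcases hKeq _ hwK with h | h
    · exfalso
      have := huniq _ h hw1
      rw [this] at hπw
      rw [hπk' _ ht₀K] at hπw
      exact hA7 hπw.symm
    · exact h
  obtain ⟨f, hf0, hf1, hf2⟩ := pres_hom (a' ^ 4) (b' ^ 6) t₀ hx3 hy5 ht₀2 (hcentral _).symm (hcentral _).symm hw2
  -- surjectivity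
  have hc0 : Function.Surjective (π.comp f) := by
    let x₀ : (π.comp f).range := ⟨CfsgLib.Present.xA5, ⟨(PresentedGroup.of 0) * (PresentedGroup.of 1), by
      rw [MonoidHom.comp_apply, map_mul, hf0, hf1]
      exact hπw⟩⟩
    let y₀ : (π.comp f).range := ⟨CfsgLib.Present.yA5, ⟨(PresentedGroup.of 0)⁻¹, by
      simp only [MonoidHom.comp_apply, map_inv, hf0, hπx, inv_inv]⟩⟩
    have hx₀ : x₀ ^ 2 = 1 := Subtype.ext hA6
    have hy₀ : y₀ ^ 3 = 1 := Subtype.ext CfsgLib.Present.relA5.2.1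
    have hxy₀ : (x₀ * y₀) ^ 5 = 1 := Subtype.ext CfsgLib.Present.relA5.2.2
    obtain ⟨φ, hφx, hφy⟩ := CfsgLib.Present.hom_A5 x₀ y₀ hx₀ hy₀ hxy₀
    let c : alternatingGroup (Fin 5) →* alternatingGroup (Fin 5) := (π.comp f).range.subtype.comp φ
    have hcinj : Function.Injective c := by
      apply CfsgLib.Present.inj_A5
      show ((φ CfsgLib.Present.xA5 : (π.comp f).range) : alternatingGroup (Fin 5)) ≠ 1
      rw [hφx]
      exact hA7
    have hcs : Function.Surjective c := Finite.injective_iff_surjective.1 hcinj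
    intro γ
    obtain ⟨δ, hδ⟩ := hcs γ
    obtain ⟨w, hw⟩ := (φ δ).2
    exact ⟨w, by rw [hw]; exact hδ⟩
  have hfs : Function.Surjective f := by
    intro g
    obtain ⟨w, hw⟩ := hc0 (π g)
    have hgw : g * (f w)⁻¹ ∈ K := by
      apply hπk
      rw [map_mul, map_inv]
      have : π (f w) = π g := hw
      rw [this, mul_inv_cancel]
    rcases hKeq _ hgw with h | h
    · exact ⟨w, (mul_inv_eq_one.1 h).symm⟩
    · refine ⟨PresentedGroup.of 2 * w, ?_⟩
      rw [map_mul, hf2, ← h]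
      group
  obtain ⟨h0, hle⟩ := pr_card_le
  haveI : Finite Pr := Nat.finite_of_card_ne_zero h0
  have hbij : Function.Bijective f := by
    apply Function.Surjective.bijective_of_nat_card_le hfs
    rw [hc]
    exact hle
  obtain ⟨E⟩ := pres_iso
  exact ⟨(MulEquiv.ofBijective f hbij).symm.trans E⟩

end main

end CfsgLib.Rec.SL25
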