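import Mathlib

/-! Linear groups in which every non-zero vector has a stabilizer of order two. -/

set_option autoImplicit false
set_option linter.unusedVariables false
set_option linter.style.haveILetI false

namespace CfsgLib.Rec.Stab2

variable {q : ℕ} [Fact q.Prime] {V : Type*} [AddCommGroup V] [Module (ZMod q) V] [Finite V]
  {G : Type*} [Group G] [Finite G] (ρ : G →* (V ≃ₗ[ZMod q] V))

/-- Two elements of a stabilizer of order two. -/
theorem stab_unique (hstab : ∀ v : V, v ≠ 0 → Nat.card {g : G // ρ g v = v} = 2) {v : V} (hv : v ≠ 0)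
    {s t : G} (hs1 : s ≠ 1) (ht1 : t ≠ 1) (hs : ρ s v = v) (ht : ρ t v = v) : s = t := by
  have h := hstab v hv
  by_contra hne
  have h3 : 3 ≤ Nat.card {g : G // ρ g v = v} := by
    have hinj : Function.Injective (fun i : Fin 3 =>
        (![⟨1, by simp⟩, ⟨s, hs⟩, ⟨t, ht⟩] : Fin 3 → {g : G // ρ g v = v}) i) := by
      intro i j hij
      fin_cases i <;> fin_cases j <;> simp at hij ⊢
      · exact absurd hij.symm hs1
      · exact absurd hij.symm ht1
      · exact absurd hij hs1
      · exact absurd hij hne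
      · exact absurd hij ht1
      · exact absurd hij.symm hne
    have := Nat.card_le_card_of_injective _ hinj
    simpa using this
  omega

theorem exists_t (hstab : ∀ v : V, v ≠ 0 → Nat.card {g : G // ρ g v = v} = 2) {v : V} (hv : v ≠ 0) :
    ∃ t : G, t ≠ 1 ∧ ρ t v = v := by
  have h := hstab v hv
  have hn : Nontrivial {g : G // ρ g v = v} := by
    apply Finite.one_lt_card_iff_nontrivial.1
    omega
  obtain ⟨x, hx⟩ := exists_ne (⟨1, by simp⟩ : {g : G // ρ g v = v})
  refine ⟨x.1, ?_, x.2⟩
  intro h1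
  exact hx (Subtype.ext h1)

theorem order_t (hstab : ∀ v : V, v ≠ 0 → Nat.card {g : G // ρ g v = v} = 2) {v : V} (hv : v ≠ 0)
    {t : G} (ht1 : t ≠ 1) (ht : ρ t v = v) : orderOf t = 2 := by
  apply orderOf_eq_prime
  · rw [pow_two]
    by_contra hne
    have h2 : ρ (t * t) v = v := by
      rw [map_mul, LinearEquiv.mul_apply, ht, ht]
    have h3 := stab_unique ρ hstab hv hne ht1 h2 ht
    exact ht1 (mul_eq_right.1 h3)
  · exact ht1

/-- A central involution acts as `-1`. -/
theorem central_neg (hρ : Function.Injective ρ)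
    (hstab : ∀ v : V, v ≠ 0 → Nat.card {g : G // ρ g v = v} = 2) {z : G} (hz : orderOf z = 2)
    (hzc : z ∈ Subgroup.center G) (v : V) : ρ z v = -v := by
  have hz1 : z ≠ 1 := by
    intro h
    rw [h, orderOf_one] at hz
    omega
  have hzz : z * z = 1 := by
    have := pow_orderOf_eq_one z
    rwa [hz, pow_two] at this
  have hZZ : ∀ u : V, ρ z (ρ z u) = u := by
    intro u
    rw [← LinearEquiv.mul_apply, ← map_mul, hzz, map_one]
    rfl
  have hcomm : ∀ g : G, ∀ u : V, ρ g (ρ z u) = ρ z (ρ g u) := by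
    intro g u
    rw [← LinearEquiv.mul_apply, ← LinearEquiv.mul_apply, ← map_mul, ← map_mul]
    rw [(Subgroup.mem_center_iff.1 hzc g)]
  have key : ∀ u : V, u ≠ 0 → ρ z u = u ∨ ρ z u = -u := by
    intro u hu
    by_cases hw : u + ρ z u = 0
    · right
      exact (eq_neg_of_add_eq_zero_right hw)
    · left
      obtain ⟨t, ht1, ht⟩ := exists_t ρ hstab hu
      have h1 : ρ t (u + ρ z u) = u + ρ z u := by
        rw [map_add, hcomm, ht]
      have h2 : ρ z (u + ρ z u) = u + ρ z u := by
        rw [map_add, hZZ, add_comm]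
      have h3 := stab_unique ρ hstab hw ht1 hz1 h1 h2
      rw [← h3]
      exact ht
  by_cases hex : ∃ v₀ : V, v₀ ≠ 0 ∧ ρ z v₀ = v₀
  · exfalso
    obtain ⟨v₀, hv₀, hv₀z⟩ := hex
    have hall : ∀ u : V, ρ z u = u := by
      intro u
      by_contra hne
      have hu : u ≠ 0 := by
        rintro rfl
        exact hne (map_zero _)
      have hu' : ρ z u = -u := (key u hu).resolve_left hne
      have hsum : u + v₀ ≠ 0 := by
        intro h
        have : u = -v₀ := eq_neg_of_add_eq_zero_left h
        apply hne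
        rw [this, map_neg, hv₀z]
      have h2u : (2 : ZMod q) • u ≠ 0 := by
        intro h
        apply hne
        rw [hu']
        have : u + u = 0 := by
          rw [← two_smul (ZMod q) u]
          exact h
        exact neg_eq_of_add_eq_zero_right this
      have hne2 : (2 : ZMod q) ≠ 0 := by
        intro h
        rw [h, zero_smul] at h2u
        exact h2u rfl
      rcases key _ hsum with h | h
      · rw [map_add, hu', hv₀z] at h
        apply h2u
        have h3 : -u = u := add_right_cancel h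
        rw [two_smul]
        exact add_eq_zero_iff_eq_neg.2 h3.symm
      · rw [map_add, hu', hv₀z, neg_add] at h
        have h3 : v₀ = -v₀ := add_left_cancel h
        have h4 : (2 : ZMod q) • v₀ = 0 := by
          rw [two_smul]
          exact add_eq_zero_iff_eq_neg.2 h3
        rcases smul_eq_zero.1 h4 with h5 | h5
        · exact hne2 h5
        · exact hv₀ h5
    apply hz1
    apply hρ
    rw [map_one]
    ext u
    exact hall u
  · by_cases hv : v = 0
    · subst hv; simp
    · refine (key v hv).resolve_left ?_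
      intro h
      exact hex ⟨v, hv, h⟩

/-- The fixed space. -/
def U (t : G) : Submodule (ZMod q) V := LinearMap.ker ((ρ t : V →ₗ[ZMod q] V) - LinearMap.id)

theorem mem_U {t : G} {v : V} : v ∈ U ρ t ↔ ρ t v = v := by
  simp [U, sub_eq_zero]

/-- The product of two disjoint fixed spaces injects. -/
theorem card_mul_le {A B : Submodule (ZMod q) V} (h : ∀ v, v ∈ A → v ∈ B → v = 0) :
    Nat.card A * Nat.card B ≤ Nat.card V := by
  rw [← Nat.card_prod]
  apply Nat.card_le_card_of_injective (fun x : A × B => (x.1 : V) + (x.2 : V))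
  rintro ⟨a, b⟩ ⟨a', b'⟩ hab
  have h1 : (a : V) + b = a' + b' := hab
  have h2 : (a : V) - a' = b' - b := by
    rw [sub_eq_sub_iff_add_eq_add]
    exact h1.trans (add_comm _ _)
  have h3 : (a : V) - a' = 0 := h _ (A.sub_mem a.2 a'.2) (by rw [h2]; exact B.sub_mem b'.2 b.2)
  have h4 : (b' : V) - b = 0 := by rw [← h2]; exact h3
  ext
  · exact sub_eq_zero.1 h3
  · exact (sub_eq_zero.1 h4).symm

theorem card_mul_eq {A B : Submodule (ZMod q) V} (h : ∀ v, v ∈ A → v ∈ B → v = 0)
    (hsp : ∀ v : V, ∃ a ∈ A, ∃ b ∈ B, a + b = v) : Nat.card A * Nat.card B = Nat.card V := by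
  rw [← Nat.card_prod]
  apply Nat.card_congr
  refine Equiv.ofBijective (fun x : A × B => (x.1 : V) + (x.2 : V)) ⟨?_, ?_⟩
  · rintro ⟨a, b⟩ ⟨a', b'⟩ hab
    have h1 : (a : V) + b = a' + b' := hab
    have h2 : (a : V) - a' = b' - b := by
      rw [sub_eq_sub_iff_add_eq_add]
      exact h1.trans (add_comm _ _)
    have h3 : (a : V) - a' = 0 := h _ (A.sub_mem a.2 a'.2) (by rw [h2]; exact B.sub_mem b'.2 b.2)
    have h4 : (b' : V) - b = 0 := by rw [← h2]; exact h3
    ext
    · exact sub_eq_zero.1 h3
    · exact (sub_eq_zero.1 h4).symm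
  · intro v
    obtain ⟨a, ha, b, hb, hab⟩ := hsp v
    exact ⟨(⟨a, ha⟩, ⟨b, hb⟩), hab⟩

theorem main [Nontrivial V] (hρ : Function.Injective ρ)
    (hstab : ∀ v : V, v ≠ 0 → Nat.card {g : G // ρ g v = v} = 2)
    (z : G) (hz : orderOf z = 2) (hzc : z ∈ Subgroup.center G) :
    ∃ r : ℕ, Nat.card V = q ^ (2 * r) ∧
      Nat.card {g : G // orderOf g = 2 ∧ g ∉ Subgroup.center G} = q ^ r + 1 := by
  classical
  letI : Fintype G := Fintype.ofFinite G
  letI : Fintype V := Fintype.ofFinite V
  have hneg := central_neg ρ hρ hstab hz hzc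
  have hz1 : z ≠ 1 := by
    intro h
    rw [h, orderOf_one] at hz
    omega
  have hzz : z * z = 1 := by
    have := pow_orderOf_eq_one z
    rwa [hz, pow_two] at this
  -- `2 ≠ 0`
  obtain ⟨v₁, hv₁⟩ := exists_ne (0 : V)
  have h2ne : (2 : ZMod q) ≠ 0 := by
    intro h
    have h1 : v₁ + v₁ = 0 := by
      rw [← two_smul (ZMod q) v₁, h, zero_smul]
    have h2 : ρ z = 1 := by
      ext u
      rw [hneg]
      have h3 : u + u = 0 := by
        rw [← two_smul (ZMod q) u, h, zero_smul]
      exact (neg_eq_of_add_eq_zero_right h3)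
    apply hz1
    apply hρ
    rw [h2, map_one]
  have htwo : ∀ v : V, v + v = 0 → v = 0 := by
    intro v hv
    rw [← two_smul (ZMod q) v] at hv
    exact (smul_eq_zero.1 hv).resolve_left h2ne
  let I : G → Prop := fun g => orderOf g = 2 ∧ g ∉ Subgroup.center G
  have hcentral : ∀ t : G, orderOf t = 2 → t ∈ Subgroup.center G → t = z := by
    intro t ht htc
    apply hρ
    ext u
    rw [central_neg ρ hρ hstab ht htc, hneg]
  have hsq : ∀ t : G, I t → t * t = 1 := by
    intro t ht
    have := pow_orderOf_eq_one t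
    rwa [ht.1, pow_two] at this
  have hIz : ∀ t : G, I t → I (z * t) := by
    intro t ht
    have hcm : z * t = t * z := (Subgroup.mem_center_iff.1 hzc t).symm
    constructor
    · apply orderOf_eq_prime
      · rw [pow_two]
        calc z * t * (z * t) = z * z * (t * t) := by
              rw [mul_assoc, ← mul_assoc t z t, ← hcm]; group
          _ = 1 := by rw [hzz, hsq t ht, one_mul]
      · intro h
        have h2 : t = z := by
          have h3 : z * t = z * z := by rw [h, hzz]
          exact mul_left_cancel h3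
        exact ht.2 (h2 ▸ hzc)
    · intro h
      apply ht.2
      have h3 : t = z * (z * t) := by rw [← mul_assoc, hzz, one_mul]
      rw [h3]
      exact Subgroup.mul_mem _ hzc h
  have hzt : ∀ t v, ρ (z * t) v = - ρ t v := by
    intro t v
    rw [map_mul, LinearEquiv.mul_apply, hneg]
  have hzzt : ∀ t : G, z * (z * t) = t := by
    intro t
    rw [← mul_assoc, hzz, one_mul]
  -- disjointness
  have hI1 : ∀ t : G, I t → t ≠ 1 := by
    intro t ht h
    have := ht.1
    rw [h, orderOf_one] at this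
    omega
  have hdisj : ∀ t t' : G, I t → I t' → t ≠ t' → ∀ v, v ∈ U ρ t → v ∈ U ρ t' → v = 0 := by
    intro t t' ht ht' hne v hv hv'
    by_contra hv0
    exact hne (stab_unique ρ hstab hv0 (hI1 t ht) (hI1 t' ht') ((mem_U ρ).1 hv) ((mem_U ρ).1 hv'))
  have hztne : ∀ t : G, I t → t ≠ z * t := by
    intro t ht h
    have h3 : (1 : G) * t = z * t := by rw [one_mul]; exact h
    exact hz1 (mul_right_cancel h3).symm
  have hcompl : ∀ t : G, I t → Nat.card (U ρ t) * Nat.card (U ρ (z * t)) = Nat.card V := by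
    intro t ht
    apply card_mul_eq
    · exact hdisj _ _ ht (hIz t ht) (hztne t ht)
    · intro v
      refine ⟨(2 : ZMod q)⁻¹ • (v + ρ t v), ?_, (2 : ZMod q)⁻¹ • (v - ρ t v), ?_, ?_⟩
      · rw [mem_U, map_smul, map_add]
        have h3 : ρ t (ρ t v) = v := by
          rw [← LinearEquiv.mul_apply, ← map_mul, hsq t ht, map_one]
          rfl
        rw [h3, add_comm]
      · rw [mem_U, map_smul, hzt, map_sub]
        have h3 : ρ t (ρ t v) = v := by
          rw [← LinearEquiv.mul_apply, ← map_mul, hsq t ht, map_one]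
          rfl
        rw [h3, neg_sub]
      · rw [← smul_add]
        have : v + ρ t v + (v - ρ t v) = (2 : ZMod q) • v := by
          rw [two_smul]; abel
        rw [this, smul_smul, inv_mul_cancel₀ h2ne, one_smul]
  -- fixed spaces are non-trivial
  have hpos : ∀ t : G, I t → ∃ v : V, v ≠ 0 ∧ v ∈ U ρ t := by
    intro t ht
    by_contra hno
    push Not at hno
    have hall : ∀ v : V, v + ρ t v = 0 := by
      intro v
      by_contra hne
      refine hno _ hne ?_
      rw [mem_U, map_add]
      have h3 : ρ t (ρ t v) = v := by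
        rw [← LinearEquiv.mul_apply, ← map_mul, hsq t ht, map_one]
        rfl
      rw [h3, add_comm]
    have htz : t = z := by
      apply hρ
      ext v
      rw [hneg]
      exact eq_neg_of_add_eq_zero_right (hall v)
    exact ht.2 (htz ▸ hzc)
  have hacard : ∀ t : G, I t → 2 ≤ Nat.card (U ρ t) := by
    intro t ht
    obtain ⟨v, hv, hvU⟩ := hpos t ht
    have : Nontrivial (U ρ t) := ⟨⟨⟨v, hvU⟩, 0, fun h => hv (congrArg Subtype.val h)⟩⟩
    exact Finite.one_lt_card
  have hstabI : ∀ (v : V) (t : G), v ≠ 0 → t ≠ 1 → ρ t v = v → I t := by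
    intro v t hv ht1 ht
    refine ⟨order_t ρ hstab hv ht1 ht, fun hc => ?_⟩
    have h1 := hcentral t (order_t ρ hstab hv ht1 ht) hc
    rw [h1, hneg] at ht
    exact hv (htwo v (neg_eq_iff_add_eq_zero.1 ht))
  have hthird : ∀ t : G, I t → ∃ t', I t' ∧ t' ≠ t ∧ t' ≠ z * t := by
    intro t ht
    obtain ⟨u, hu, huU⟩ := hpos t ht
    obtain ⟨w, hw, hwU⟩ := hpos (z * t) (hIz t ht)
    have hv : u + w ≠ 0 := by
      intro h
      have h1 : u = -w := eq_neg_of_add_eq_zero_left h
      have h2 : u ∈ U ρ (z * t) := by rw [h1]; exact Submodule.neg_mem _ hwU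
      exact hu (hdisj _ _ ht (hIz t ht) (hztne t ht) u huU h2)
    obtain ⟨t', ht1, ht'⟩ := exists_t ρ hstab hv
    have hu' : ρ t u = u := (mem_U ρ).1 huU
    have hw' : ρ t w = -w := by
      have := (mem_U ρ).1 hwU
      rw [hzt] at this
      exact neg_eq_iff_eq_neg.1 this
    refine ⟨t', hstabI _ _ hv ht1 ht', ?_, ?_⟩
    · rintro rfl
      rw [map_add, hu', hw'] at ht'
      have h3 : -w = w := add_left_cancel ht'
      exact hw (htwo w (neg_eq_iff_add_eq_zero.1 h3))
    · rintro rfl
      rw [map_add, hzt, hzt, hu', hw', neg_neg] at ht'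
      have h3 : -u = u := add_right_cancel ht'
      exact hu (htwo u (neg_eq_iff_add_eq_zero.1 h3))
  have hle : ∀ t t' : G, I t → I t' → t' ≠ t → t' ≠ z * t →
      Nat.card (U ρ t) ≤ Nat.card (U ρ t') := by
    intro t t' ht ht' hne hne'
    have h1 : Nat.card (U ρ t) * Nat.card (U ρ (z * t')) ≤ Nat.card V := by
      apply card_mul_le
      apply hdisj _ _ ht (hIz t' ht')
      intro h
      apply hne'
      rw [h, hzzt]
    rw [← hcompl t' ht'] at h1
    have h2 := hacard (z * t') (hIz t' ht')
    exact Nat.le_of_mul_le_mul_right h1 (by omega)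
  have heq1 : ∀ t t' : G, I t → I t' → t' ≠ t → t' ≠ z * t →
      Nat.card (U ρ t) = Nat.card (U ρ t') := by
    intro t t' ht ht' hne hne'
    apply le_antisymm (hle t t' ht ht' hne hne')
    apply hle t' t ht' ht hne.symm
    intro h
    apply hne'
    rw [h, hzzt]
  have heqz : ∀ t : G, I t → Nat.card (U ρ t) = Nat.card (U ρ (z * t)) := by
    intro t ht
    obtain ⟨t', ht', h1, h2⟩ := hthird t ht
    rw [heq1 t t' ht ht' h1 h2]
    symm
    apply heq1 (z * t) t' (hIz t ht) ht' h2
    rwa [hzzt]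
  have heq : ∀ t t' : G, I t → I t' → Nat.card (U ρ t) = Nat.card (U ρ t') := by
    intro t t' ht ht'
    by_cases h1 : t' = t
    · rw [h1]
    by_cases h2 : t' = z * t
    · rw [h2]; exact heqz t ht
    exact heq1 t t' ht ht' h1 h2
  obtain ⟨t₀, ht₀1, ht₀⟩ := exists_t ρ hstab hv₁
  have ht₀I := hstabI _ _ hv₁ ht₀1 ht₀
  obtain ⟨r, hr⟩ : ∃ r : ℕ, Nat.card (U ρ t₀) = q ^ r := by
    refine ⟨Module.finrank (ZMod q) (U ρ t₀), ?_⟩
    have := Module.natCard_eq_pow_finrank (K := ZMod q) (V := U ρ t₀)
    rwa [Nat.card_zmod] at this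
  have hN : Nat.card V = q ^ (2 * r) := by
    rw [← hcompl t₀ ht₀I, ← heqz t₀ ht₀I, hr, two_mul, pow_add]
  refine ⟨r, hN, ?_⟩
  -- the partition count
  let f : V → G := fun v => if h : v ≠ 0 then (exists_t ρ hstab h).choose else t₀
  have hf : ∀ v : V, v ≠ 0 → f v ≠ 1 ∧ ρ (f v) v = v := by
    intro v hv
    have : f v = (exists_t ρ hstab hv).choose := dif_pos hv
    rw [this]
    exact (exists_t ρ hstab hv).choose_spec
  let S : Finset V := Finset.univ.filter (fun v => v ≠ 0)
  let T : Finset G := Finset.univ.filter (fun g => I g)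
  have hmaps : Set.MapsTo f S T := by
    intro v hv
    have hv0 : v ≠ 0 := by simpa [S] using hv
    have h := hf v hv0
    simpa [T] using hstabI v (f v) hv0 h.1 h.2
  have hcount := Finset.card_eq_sum_card_fiberwise hmaps
  have hfib : ∀ t ∈ T, (S.filter (fun v => f v = t)).card = q ^ r - 1 := by
    intro t ht
    have htI : I t := by simpa [T] using ht
    have h1 : S.filter (fun v => f v = t) = (Finset.univ.filter (fun v => v ∈ U ρ t)).erase 0 := by
      ext v
      simp only [S, Finset.mem_filter, Finset.mem_univ, true_and, Finset.mem_erase]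
      constructor
      · rintro ⟨hv, rfl⟩
        exact ⟨hv, (mem_U ρ).2 (hf v hv).2⟩
      · rintro ⟨hv, hvU⟩
        refine ⟨hv, ?_⟩
        exact stab_unique ρ hstab hv (hf v hv).1 (hI1 t htI) (hf v hv).2 ((mem_U ρ).1 hvU)
    rw [h1, Finset.card_erase_of_mem (by simp)]
    congr 1
    rw [← Fintype.card_subtype, ← Nat.card_eq_fintype_card, heq t t₀ htI ht₀I, hr]
  rw [Finset.sum_congr rfl hfib, Finset.sum_const, smul_eq_mul] at hcount
  have hS : S.card = Nat.card V - 1 := by
    have : S = Finset.univ.erase 0 := by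
      ext v
      simp [S]
    rw [this, Finset.card_erase_of_mem (Finset.mem_univ _), Finset.card_univ,
      Nat.card_eq_fintype_card]
  have hT : T.card = Nat.card {g : G // orderOf g = 2 ∧ g ∉ Subgroup.center G} := by
    rw [Nat.card_eq_fintype_card, Fintype.card_subtype]
  rw [← hT]
  have hqr : 2 ≤ q ^ r := by
    rw [← hr]
    exact hacard t₀ ht₀I
  rw [hS, hN] at hcount
  obtain ⟨a, ha⟩ : ∃ a, q ^ r = a + 2 := ⟨q ^ r - 2, by omega⟩
  have hpow : q ^ (2 * r) = (a + 2) * (a + 2) := by
    rw [two_mul, pow_add, ha]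
  rw [hpow, ha] at hcount
  rw [ha]
  have h5 : (a + 2) * (a + 2) - 1 = (a + 3) * (a + 2 - 1) := by
    have h6 : a + 2 - 1 = a + 1 := by omega
    rw [h6]
    have : (a + 2) * (a + 2) = (a + 3) * (a + 1) + 1 := by ring
    omega
  rw [h5] at hcount
  have h7 : 0 < a + 2 - 1 := by omega
  have := Nat.eq_of_mul_eq_mul_right h7 hcount
  omega

end CfsgLib.Rec.Stab2
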