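import Mathlib
import Cfsg.Agent.Lib.H9.PermChar2

/-! Two permutation characters of the same degree. -/

set_option autoImplicit false

namespace CfsgLib.Rec

open Cfsg CfsgLib.Char CfsgLib.H9.PermChar
open scoped ComplexConjugate

universe u v w

variable {G : Type u} [Group G] [Fintype G]

theorem fix_pairs2 (X : Type v) (Y : Type w) [MulAction G X] [MulAction G Y] (g : G) :
    Nat.card (MulAction.fixedBy (X × Y) g) =
      Nat.card (MulAction.fixedBy X g) * Nat.card (MulAction.fixedBy Y g) := by
  have e : MulAction.fixedBy (X × Y) g ≃ MulAction.fixedBy X g × MulAction.fixedBy Y g :=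
    { toFun := fun p => (⟨p.1.1, by
          have h : g • p.1 = p.1 := p.2
          exact congrArg Prod.fst h⟩, ⟨p.1.2, by
          have h : g • p.1 = p.1 := p.2
          exact congrArg Prod.snd h⟩)
      invFun := fun p => ⟨(p.1.1, p.2.1), by
        show g • ((p.1.1, p.2.1) : X × Y) = _
        rw [Prod.smul_mk]
        have h1 : g • p.1.1 = p.1.1 := p.1.2
        have h2 : g • p.2.1 = p.2.1 := p.2.2
        rw [h1, h2]⟩
      left_inv := fun p => rfl
      right_inv := fun p => rfl }
  rw [Nat.card_congr e, Nat.card_prod]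

theorem classInner_pi_two (X : Type v) (Y : Type w) [MulAction G X] [MulAction G Y] [Finite X] [Finite Y] :
    classInner (pi G X) (pi G Y) = (Nat.card (MulAction.orbitRel.Quotient G (X × Y)) : ℂ) := by
  rw [← sum_fixedBy_eq (G := G) (X × Y), classInner_def]
  congr 1
  apply Finset.sum_congr rfl
  intro g _
  simp only [pi, fix_pairs2, Complex.conj_natCast]
  push_cast
  ring

theorem card_orbits_quot (H : Subgroup G) (Ω : Type v) [MulAction G Ω] :
    Nat.card (MulAction.orbitRel.Quotient G ((G ⧸ H) × Ω)) =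
      Nat.card (MulAction.orbitRel.Quotient H Ω) := by
  symm
  let F : MulAction.orbitRel.Quotient H Ω → MulAction.orbitRel.Quotient G ((G ⧸ H) × Ω) :=
    Quotient.lift (fun b => (Quotient.mk'' (((1 : G) : G ⧸ H), b) :
        MulAction.orbitRel.Quotient G ((G ⧸ H) × Ω)))
      (by
        intro b b' h
        have h' : b ∈ MulAction.orbit H b' := h
        obtain ⟨s, hs⟩ := h'
        apply Quotient.sound'
        show (((1 : G) : G ⧸ H), b) ∈ MulAction.orbit G (((1 : G) : G ⧸ H), b')
        refine ⟨(s : G), ?_⟩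
        have hsb : (s : G) • b' = b := hs
        show (s : G) • (((1 : G) : G ⧸ H), b') = (((1 : G) : G ⧸ H), b)
        rw [Prod.smul_mk, hsb]
        congr 1
        rw [MulAction.Quotient.smul_coe]
        rw [QuotientGroup.eq]
        simp)
  apply Nat.card_eq_of_bijective F
  constructor
  · intro q q'
    induction q using Quotient.inductionOn
    induction q' using Quotient.inductionOn
    rename_i b b'
    intro h
    have h' : (((1 : G) : G ⧸ H), b) ∈ MulAction.orbit G (((1 : G) : G ⧸ H), b') :=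
      Quotient.exact' h
    obtain ⟨g, hg⟩ := h'
    have hg' : g • (((1 : G) : G ⧸ H), b') = (((1 : G) : G ⧸ H), b) := hg
    rw [Prod.smul_mk, Prod.mk.injEq] at hg'
    apply Quotient.sound'
    show b ∈ MulAction.orbit H b'
    have h1 := hg'.1
    rw [MulAction.Quotient.smul_coe, QuotientGroup.eq] at h1
    have hgH : g ∈ H := by
      simpa using h1
    exact ⟨⟨g, hgH⟩, hg'.2⟩
  · intro q
    induction q using Quotient.inductionOn
    rename_i p
    obtain ⟨x, hx⟩ : ∃ x : G, ((x : G) : G ⧸ H) = p.1 := QuotientGroup.mk_surjective p.1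
    refine ⟨Quotient.mk'' (x⁻¹ • p.2), ?_⟩
    show (Quotient.mk'' (((1 : G) : G ⧸ H), x⁻¹ • p.2) : MulAction.orbitRel.Quotient G _) = _
    apply Quotient.sound'
    show (((1 : G) : G ⧸ H), x⁻¹ • p.2) ∈ MulAction.orbit G p
    refine ⟨x⁻¹, ?_⟩
    show x⁻¹ • p = _
    rw [Prod.smul_def, ← hx]
    congr 1
    rw [MulAction.Quotient.smul_coe, QuotientGroup.eq]
    simp

theorem s3704 {Ω : Type v} [MulAction G Ω] [Finite Ω]
    (h2 : MulAction.IsMultiplyPretransitive G Ω 2) (H : Subgroup G)
    (hidx : H.index = Nat.card Ω) (hnt : ¬ MulAction.IsPretransitive H Ω) :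
    Nat.card (MulAction.orbitRel.Quotient H Ω) = 2 := by
  classical
  have hc : 0 < Nat.card Ω := by
    rw [← hidx]
    exact Nat.pos_of_ne_zero (Subgroup.index_ne_zero_of_finite)
  haveI hne : Nonempty Ω := (Nat.card_pos_iff.1 hc).1
  have hc2 : 2 ≤ Nat.card Ω := by
    by_contra hlt
    apply hnt
    have h1 : Nat.card Ω = 1 := by omega
    haveI : Subsingleton Ω := (Nat.card_eq_one_iff_unique.1 h1).1
    refine ⟨fun a b => ⟨1, Subsingleton.elim _ _⟩⟩
  haveI htr : MulAction.IsPretransitive G Ω := by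
    have h1 : MulAction.IsMultiplyPretransitive G Ω 1 :=
      MulAction.isMultiplyPretransitive_of_le (n := 2) (by norm_num) hc2
    exact MulAction.is_one_pretransitive_iff.1 h1
  have hχ : IsIrrCharacter G (fun g => (Nat.card (MulAction.fixedBy Ω g) : ℂ) - 1) :=
    (isIrr_perm_sub_one_iff Ω hc2).2 h2
  -- transitivity on cosets
  haveI : Nonempty (G ⧸ H) := ⟨((1 : G) : G ⧸ H)⟩
  haveI hfin : Finite (G ⧸ H) := inferInstance
  have hθc : IsCharacter G (pi G (G ⧸ H)) := isCharacter_perm (G ⧸ H)
  have h1θ : classInner (pi G (G ⧸ H)) (fun _ => 1) = 1 := by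
    haveI : Fintype (G ⧸ H) := Fintype.ofFinite _
    exact classInner_pi_one
  have h1π : classInner (pi G Ω) (fun _ => 1) = 1 := by
    haveI : Fintype Ω := Fintype.ofFinite _
    exact classInner_pi_one
  have hθ' : IsCharacter G (fun g => pi G (G ⧸ H) g - 1) :=
    sub_isCharacter_of_classInner_ne_zero hθc isIrrCharacter_one (by rw [h1θ]; exact one_ne_zero)
  have hinner : classInner (fun g => pi G (G ⧸ H) g - 1)
      (fun g => (Nat.card (MulAction.fixedBy Ω g) : ℂ) - 1) =
      (Nat.card (MulAction.orbitRel.Quotient H Ω) : ℂ) - 1 := by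
    have h0 := classInner_pi_two (G := G) (G ⧸ H) Ω
    rw [card_orbits_quot] at h0
    have hG : (Nat.card G : ℂ) ≠ 0 := card_ne_zero_C G
    rw [classInner_def] at h0 h1θ h1π ⊢
    have hterm : ∀ g : G, (pi G (G ⧸ H) g - 1) *
        conj ((Nat.card (MulAction.fixedBy Ω g) : ℂ) - 1) =
        pi G (G ⧸ H) g * conj (pi G Ω g) - pi G (G ⧸ H) g * conj 1 - (pi G Ω g * conj 1) + 1 := by
      intro g
      simp only [map_sub, map_one, Complex.conj_natCast, pi, mul_one]
      ring
    simp only [hterm]
    rw [Finset.sum_add_distrib, Finset.sum_sub_distrib, Finset.sum_sub_distrib, mul_add, mul_sub,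
      mul_sub, h0, h1θ, h1π]
    simp only [Finset.sum_const, Finset.card_univ, nsmul_eq_mul, mul_one, Fintype.card_eq_nat_card]
    rw [inv_mul_cancel₀ hG]
    ring
  have hr1 : Nat.card (MulAction.orbitRel.Quotient H Ω) ≠ 1 := by
    intro h
    apply hnt
    rw [Nat.card_eq_one_iff_unique] at h
    exact (MulAction.pretransitive_iff_subsingleton_quotient H Ω).2 h.1
  have hne0 : classInner (fun g => pi G (G ⧸ H) g - 1)
      (fun g => (Nat.card (MulAction.fixedBy Ω g) : ℂ) - 1) ≠ 0 := by
    rw [hinner]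
    intro h
    apply hr1
    have : (Nat.card (MulAction.orbitRel.Quotient H Ω) : ℂ) = 1 := sub_eq_zero.1 h
    exact_mod_cast this
  have hdeg : (fun g => pi G (G ⧸ H) g - 1) 1 =
      (fun g => (Nat.card (MulAction.fixedBy Ω g) : ℂ) - 1) (1 : G) := by
    simp only [pi]
    have h3 : Nat.card (MulAction.fixedBy (G ⧸ H) (1 : G)) = Nat.card Ω := by
      rw [← hidx, Subgroup.index, MulAction.fixedBy_one_eq_univ, Nat.card_univ]
    have h4 : Nat.card (MulAction.fixedBy Ω (1 : G)) = Nat.card Ω := by
      rw [MulAction.fixedBy_one_eq_univ, Nat.card_univ]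
    rw [h3, h4]
  have heq := eq_of_degree_eq_of_constituent hθ' hχ hne0 hdeg
  rw [heq, classInner_irr_self hχ] at hinner
  have h5 : (Nat.card (MulAction.orbitRel.Quotient H Ω) : ℂ) = 2 := by
    linear_combination -hinner
  exact_mod_cast h5

end CfsgLib.Rec
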